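import Cfsg.Agent.H97.SBDef
import Cfsg.Agent.BlkInd.CoverB
import Cfsg.Agent.Solv.Core
import Cfsg.Prelude.Def_Blocks

set_option autoImplicit false

/-!
S4990, piece B2: the induction.
-/

universe u

namespace Cfsg.Agent.H42.BlkLe

open Cfsg

/-- the conclusion -/
def Concl (p : ℕ) {G : Type u} [Group G] (B : Set (IrrCharacter G)) : Prop :=
  ∃ (X : Type) (_ : Group X) (_ : Finite X), Group.IsSolvable X ∧ pPrimeCore p X = ⊥ ∧
      (Nat.card X).factorization p = blockDefect p B ∧ Set.ncard B ≤ Nat.card (ConjClasses X)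

theorem block_le_of (p : ℕ) [Fact p.Prime] (M : Ideal AlgInt) (hM : IsPModular p M)
    (hinv' : ∀ {G : Type u} [Group G] [Fintype G], Group.IsSolvable G → ∀ (B : Set (IrrCharacter G)), IsPBlock M B →
      ∀ (N : Subgroup G) [hN : N.Normal] [Fintype N], N = pPrimeCore p G → ∀ (θ : IrrCharacter N),
      (∀ (g : G) (n : N), (θ : N → ℂ) ⟨g * n * g⁻¹, hN.conj_mem n n.2 g⟩ = (θ : N → ℂ) n) →
      ∀ χ : IrrCharacter G, χ ∈ B → classInner (fun n : N => (χ : G → ℂ) n) (θ : N → ℂ) ≠ 0 → Concl p B)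
    (hstep : ∀ {G : Type u} [Group G] [Fintype G], ∀ (B : Set (IrrCharacter G)), IsPBlock M B →
      ∀ (N : Subgroup G) [hN : N.Normal] [Fintype N], ¬ p ∣ Nat.card N → ∀ (θ : IrrCharacter N),
      (¬ ∀ (g : G) (n : N), (θ : N → ℂ) ⟨g * n * g⁻¹, hN.conj_mem n n.2 g⟩ = (θ : N → ℂ) n) →
      ∀ χ : IrrCharacter G, χ ∈ B → classInner (fun n : N => (χ : G → ℂ) n) (θ : N → ℂ) ≠ 0 →
      ∃ (T : Subgroup G) (_ : Fintype T), T ≠ ⊤ ∧ ∃ B' : Set (IrrCharacter T), IsPBlock M B' ∧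
        blockDefect p B' = blockDefect p B ∧ Set.ncard B ≤ Set.ncard B') (n : ℕ) :
    ∀ {G : Type u} [Group G] [Finite G], Nat.card G = n → Group.IsSolvable G → ∀ (B : Set (IrrCharacter G)), IsPBlock M B →
      Concl p B := by
  classical
  induction n using Nat.strong_induction_on with
  | _ n ih =>
    intro G _ _ hn hsolv B hB
    haveI : Fintype G := Fintype.ofFinite G
    have hNn : (pPrimeCore p G).Normal := inferInstance
    haveI : Fintype (pPrimeCore p G) := Fintype.ofFinite _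
    obtain ⟨χ, hχ⟩ := hB
    have hχB : χ ∈ B := by
      rw [hχ]
      show SameBlock M (χ : G → ℂ) (χ : G → ℂ)
      intro g
      rw [sub_self]
      exact ⟨0, 1, Ideal.zero_mem _, fun h => hM.2.1.ne_top ((Ideal.eq_top_iff_one M).mpr h), by simp⟩
    obtain ⟨θ, hθ⟩ := BlkInd.exists_constituent_restrict (N := pPrimeCore p G) χ
    have hNp : ¬ p ∣ Nat.card (pPrimeCore p G) := by
      intro h
      have h1 := Solv.pPrimeCore_card_coprime (G := G) p
      have h2 := Nat.Coprime.eq_one_of_dvd h1.symm h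
      exact (Fact.out : p.Prime).one_lt.ne' h2
    by_cases hinv : ∀ (g : G) (n : pPrimeCore p G), (θ : pPrimeCore p G → ℂ) ⟨g * n * g⁻¹, hNn.conj_mem n n.2 g⟩ = (θ : pPrimeCore p G → ℂ) n
    · exact hinv' hsolv B ⟨χ, hχ⟩ (pPrimeCore p G) rfl θ hinv χ hχB hθ
    · obtain ⟨T, _, hT, B', hB', hdef, hcard⟩ := hstep B ⟨χ, hχ⟩ (pPrimeCore p G) hNp θ hinv χ hχB hθ
      have hlt : Nat.card T < n := by
        rw [← hn]
        exact lt_of_le_of_ne (Subgroup.card_le_card_group T) (fun h => hT (Subgroup.eq_top_of_card_eq T h))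
      obtain ⟨X, i1, i2, hX1, hX2, hX3, hX4⟩ := ih (Nat.card T) hlt (G := T) rfl (by
        haveI := hsolv
        infer_instance) B' hB'
      exact ⟨X, i1, i2, hX1, hX2, by rw [hX3, hdef], hcard.trans hX4⟩

end Cfsg.Agent.H42.BlkLe
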