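import Cfsg.Agent.H76.FRRank
import Cfsg.Agent.H75.Tools
import Cfsg.Agent.S0914
import Cfsg.Agent.H97.SBDef

set_option autoImplicit false

/-!
S4990, piece B2: the Fong-Reynolds step.
-/

universe u

namespace Cfsg.Agent.H42.BlkLe

open Cfsg Cfsg.Agent.CharBase Cfsg.Agent.Char Cfsg.Agent.Blk Cfsg.Agent.BlkC Cfsg.Agent.H76

/-- (copied from S4436) the Fong-Reynolds correspondence preserves the defect -/
theorem defect_eq {G : Type u} [Group G] [Fintype G] {p : ℕ} [Fact p.Prime] {M : Ideal AlgInt} (hM : IsPModular p M)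
    {N T : Subgroup G} [hN : N.Normal] [Fintype T] [Fintype N] (hNT : N ≤ T) {b : Set (IrrCharacter N)}
    (h : IsStab N T b) (hb : IsPBlock M b) {B' : Set (IrrCharacter T)} {B : Set (IrrCharacter G)}
    (hind : IsInducedBlock M T B' B) (hcov : ∃ ψ ∈ B', OverT N T hNT b ψ) : blockDefect p B = blockDefect p B' := by
  have hMp := isPrime_of_isPModular hM
  have hpp : p.Prime := Fact.out
  have hB' := hind.1
  have hmem := h.mem_iff hNT hb hind hcov
  have hTi : T.index ≠ 0 := Subgroup.index_ne_zero_of_finite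
  have hdeg : ∀ (χ : IrrCharacter G) (ψ : IrrCharacter T), (χ : G → ℂ) = indFun T (ψ : T → ℂ) →
      (charDegree (χ : G → ℂ)).factorization p =
        T.index.factorization p + (charDegree (ψ : T → ℂ)).factorization p := by
    intro χ ψ hχ
    have h1 : (χ : G → ℂ) 1 = ((T.index * H75.deg ψ : ℕ) : ℂ) := by
      rw [hχ, indFun_one_apply, H75.deg_spec]; push_cast; rfl
    rw [H75.charDegree_eq h1, H75.charDegree_eq_deg, Nat.factorization_mul hTi (H75.deg_pos ψ).ne']
    rfl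
  have hover : ∀ ψ ∈ B', ∃ χ ∈ B, (χ : G → ℂ) = indFun T (ψ : T → ℂ) := by
    intro ψ hψ
    obtain ⟨ψ₀, hψ₀, hov⟩ := hcov
    obtain ⟨χ, hχ⟩ := h.exists_indFun hNT
      (h.overT_of_sameBlock hNT hb (Blk.sameBlock_of_mem hB' hψ₀ hψ) hov)
    exact ⟨χ, (hmem χ).mpr ⟨ψ, hψ, hχ⟩, hχ⟩
  set FB : Set ℕ := (fun χ : IrrCharacter G => (charDegree (χ : G → ℂ)).factorization p) '' B with hFB
  set FB' : Set ℕ :=
    (fun χ : IrrCharacter T => (charDegree (χ : T → ℂ)).factorization p) '' B' with hFB'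
  have hne' : FB'.Nonempty := (isPBlock_nonempty hB').image _
  have hne : FB.Nonempty := (isPBlock_nonempty hind.2.1).image _
  have hinf : sInf FB = T.index.factorization p + sInf FB' := by
    apply le_antisymm
    · obtain ⟨ψ, hψ, hψe⟩ := Nat.sInf_mem hne'
      obtain ⟨χ, hχB, hχ⟩ := hover ψ hψ
      refine Nat.sInf_le ⟨χ, hχB, ?_⟩
      simp only at hψe ⊢
      rw [hdeg χ ψ hχ, hψe]
    · obtain ⟨χ, hχB, hχe⟩ := Nat.sInf_mem hne
      obtain ⟨ψ, hψ, hχ⟩ := (hmem χ).mp hχB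
      have h1 : sInf FB' ≤ (charDegree (ψ : T → ℂ)).factorization p := Nat.sInf_le ⟨ψ, hψ, rfl⟩
      simp only at hχe
      rw [← hχe, hdeg χ ψ hχ]
      omega
  unfold blockDefect
  rw [← hFB, ← hFB', hinf]
  have h1 : (Nat.card G).factorization p =
      (Nat.card T).factorization p + T.index.factorization p := by
    rw [← Subgroup.card_mul_index T, Nat.factorization_mul Nat.card_pos.ne' hTi]
    rfl
  rw [h1]
  omega

theorem block_step {G : Type u} [Group G] [Fintype G] (p : ℕ) [Fact p.Prime] (M : Ideal AlgInt) (hM : IsPModular p M)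
    (B : Set (IrrCharacter G)) (hB : IsPBlock M B) (N : Subgroup G) [hN : N.Normal] [Fintype N] (hNp : ¬ p ∣ Nat.card N)
    (θ : IrrCharacter N)
    (hninv : ¬ ∀ (g : G) (n : N), (θ : N → ℂ) ⟨g * n * g⁻¹, hN.conj_mem n n.2 g⟩ = (θ : N → ℂ) n)
    (χ : IrrCharacter G) (hχB : χ ∈ B) (hχ : classInner (fun n : N => (χ : G → ℂ) n) (θ : N → ℂ) ≠ 0) :
    ∃ (T : Subgroup G) (_ : Fintype T), T ≠ ⊤ ∧ ∃ B' : Set (IrrCharacter T), IsPBlock M B' ∧
      blockDefect p B' = blockDefect p B ∧ Set.ncard B ≤ Set.ncard B' := by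
  classical
  haveI hMp := isPrime_of_isPModular hM
  have hbs : blockOf M (θ : N → ℂ) = {θ} := by
    refine (S0914.result p M hM θ).mp fun h => hNp (h.trans ?_)
    exact Nat.div_dvd_of_dvd (BlkC.charDegree_dvd_card θ)
  have hb : IsPBlock M (blockOf M (θ : N → ℂ)) := ⟨θ, rfl⟩
  haveI : Fintype (inertia N (θ : N → ℂ)) := Fintype.ofFinite _
  have hNT : N ≤ inertia N (θ : N → ℂ) := le_inertia N (irr_isClassFunction θ)
  have h : IsStab N (inertia N (θ : N → ℂ)) (blockOf M (θ : N → ℂ)) := by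
    rw [hbs]
    constructor
    · intro g hg η hη η' hη'
      rw [Set.mem_singleton_iff] at hη ⊢
      subst hη
      apply Subtype.ext
      rw [hη']
      exact hg
    · intro g η hη η' hη' hcj
      rw [Set.mem_singleton_iff] at hη hη'
      subst hη
      rw [hη'] at hcj
      exact hcj.symm
  have hover : OverG N (blockOf M (θ : N → ℂ)) χ := ⟨θ, by rw [hbs]; exact Set.mem_singleton _, hχ⟩
  obtain ⟨ψ, hψ, hχψ⟩ := h.exists_of_overG hNT hover
  have hBe : B = blockOf M (χ : G → ℂ) := isPBlock_eq_blockOf hB hχB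
  have hind : IsInducedBlock M (inertia N (θ : N → ℂ)) (blockOf M (ψ : inertia N (θ : N → ℂ) → ℂ)) B := by
    rw [hBe]
    exact h.isInducedBlock hNT hb (isPBlock_blockOf ψ) (mem_blockOf_self ψ) hψ hχψ
  have hcov : ∃ ψ' ∈ blockOf M (ψ : inertia N (θ : N → ℂ) → ℂ), OverT N (inertia N (θ : N → ℂ)) hNT (blockOf M (θ : N → ℂ)) ψ' :=
    ⟨ψ, mem_blockOf_self ψ, hψ⟩
  refine ⟨inertia N (θ : N → ℂ), inferInstance, ?_, blockOf M (ψ : inertia N (θ : N → ℂ) → ℂ), isPBlock_blockOf ψ, ?_, ?_⟩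
  · intro htop
    apply hninv
    intro g n
    have hg : g ∈ inertia N (θ : N → ℂ) := by rw [htop]; exact Subgroup.mem_top g
    exact (mem_inertia_iff N).mp hg n
  · exact (defect_eq hM hNT h hb hind hcov).symm
  · have hr := (h.rank_eq hNT hM hb hind hcov).1
    rw [Nat.card_coe_set_eq, Nat.card_coe_set_eq] at hr
    exact hr.le

end Cfsg.Agent.H42.BlkLe
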