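import Cfsg.Agent.S4448
import Cfsg.Agent.S4449
import Cfsg.Agent.H75.Inflate
import Cfsg.Agent.Char.Gallagher
import Cfsg.Agent.Char.Linear
import Cfsg.Agent.Char.GoingDown
import Mathlib.GroupTheory.Transfer
import Mathlib.GroupTheory.SchurZassenhaus

set_option autoImplicit false

/-! Invariant characters above a central character: the central case of S4450. -/

open Cfsg Cfsg.Agent.Char Cfsg.Agent.CharBase

namespace Cfsg.Agent.H42.IA

universe u v

theorem exists_pi_split (n : ℕ) (N : ℕ) (hN : N ≠ 0) :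
    ∃ a b : ℕ, N = a * b ∧ b.Coprime n ∧ ∀ p : ℕ, p.Prime → p ∣ a → p ∣ n := by
  induction N using Nat.strong_induction_on with
  | _ N ih =>
  by_cases h : N.Coprime n
  · exact ⟨1, N, by simp, h, fun p hp h1 => absurd (Nat.dvd_one.1 h1) hp.one_lt.ne'⟩
  · obtain ⟨p, hp, h1, h2⟩ := Nat.Prime.not_coprime_iff_dvd.1 h
    obtain ⟨M, rfl⟩ := h1
    have hM : M ≠ 0 := by rintro rfl; exact hN (mul_zero p)
    have hlt : M < p * M := by
      have := hp.two_le
      have hM0 := Nat.pos_of_ne_zero hM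
      nlinarith
    obtain ⟨a, b, hab, hb, ha⟩ := ih M hlt hM
    refine ⟨p * a, b, by rw [hab, mul_assoc], hb, fun q hq hqa => ?_⟩
    rcases (Nat.Prime.dvd_mul hq).1 hqa with h3 | h3
    · rw [(Nat.prime_dvd_prime_iff_eq hq hp).1 h3]; exact h2
    · exact ha q hq h3

/-- a normal Hall subgroup of a group whose central quotient has order prime to `n`. -/
theorem exists_hall {G : Type u} [Group G] [Finite G] (n : ℕ)
    (hc : (Subgroup.center G).index.Coprime n) :
    ∃ (K : Subgroup G) (e : ℕ), (∀ x, x ∈ K ↔ x ^ e = 1) ∧ (Nat.card K).Coprime n ∧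
      (∀ p : ℕ, p.Prime → p ∣ K.index → p ∣ n) ∧ ∀ x y : G, x * y * x⁻¹ * y⁻¹ ∈ K := by
  classical
  obtain ⟨a, b, hab, hb, ha⟩ := exists_pi_split n (Nat.card (Subgroup.center G)) Nat.card_pos.ne'
  set c := (Subgroup.center G).index with hcdef
  have hcm : ∀ u v : Subgroup.center G, Commute u v := fun u v =>
    Subtype.ext (Subgroup.mem_center_iff.1 v.2 u)
  let f : G →* Subgroup.center G :=
    MonoidHom.mk' (fun x => (MonoidHom.transferCenterPow G x) ^ b)
      (fun x y => by rw [map_mul, (hcm _ _).mul_pow])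
  have hf : ∀ x, ((f x : Subgroup.center G) : G) = x ^ (c * b) := by
    intro x
    show ((MonoidHom.transferCenterPow G x) ^ b : G) = _
    rw [MonoidHom.transferCenterPow_apply, ← pow_mul]
  have hmem : ∀ x, x ∈ f.ker ↔ x ^ (c * b) = 1 := by
    intro x
    rw [MonoidHom.mem_ker, ← hf x]
    constructor
    · intro h; rw [h]; rfl
    · intro h; exact Subtype.ext h
  refine ⟨f.ker, c * b, hmem, ?_, ?_, ?_⟩
  · rw [Nat.coprime_iff_gcd_eq_one]
    by_contra hne
    obtain ⟨p, hp, hpd⟩ := Nat.exists_prime_and_dvd hne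
    have h1 : p ∣ Nat.card f.ker := hpd.trans (Nat.gcd_dvd_left _ _)
    have h2 : p ∣ n := hpd.trans (Nat.gcd_dvd_right _ _)
    haveI : Fact p.Prime := ⟨hp⟩
    obtain ⟨x, hx⟩ := exists_prime_orderOf_dvd_card' p h1
    have h3 := (hmem x).1 x.2
    have h4 : orderOf x ∣ c * b := by
      rw [orderOf_dvd_iff_pow_eq_one]
      exact Subtype.ext h3
    rw [hx] at h4
    rcases (Nat.Prime.dvd_mul hp).1 h4 with h5 | h5
    · exact hp.one_lt.ne' (Nat.dvd_one.1 (hc ▸ Nat.dvd_gcd h5 h2))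
    · exact hp.one_lt.ne' (Nat.dvd_one.1 (hb ▸ Nat.dvd_gcd h5 h2))
  · intro p hp hpd
    rw [Subgroup.index_ker] at hpd
    haveI : Fact p.Prime := ⟨hp⟩
    obtain ⟨z, hz⟩ := exists_prime_orderOf_dvd_card' p hpd
    obtain ⟨z, ⟨x, hxz⟩⟩ := z
    have h3 : orderOf (f x) = p := by
      rw [hxz, ← hz]
      exact (Subgroup.orderOf_mk z _).symm
    apply ha p hp
    rw [← h3, orderOf_dvd_iff_pow_eq_one]
    show (((MonoidHom.transferCenterPow G x) ^ b : Subgroup.center G)) ^ a = 1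
    rw [← pow_mul, mul_comm, ← hab, pow_card_eq_one']
  · intro x y
    rw [MonoidHom.mem_ker, map_mul, map_mul, map_mul, map_inv, map_inv, (hcm (f x) (f y)).eq,
      mul_inv_cancel_right, mul_inv_cancel]

/-- inflation along a surjective homomorphism. -/
theorem deflate_surj {A : Type u} {B : Type v} [Group A] [Group B] [Finite A] (f : A →* B)
    (hf : Function.Surjective f) {χ : A → ℂ}
    (hχ : IsIrrCharacter A χ) (hk : ∀ a ∈ f.ker, χ a = χ 1) :
    ∃ ψ : B → ℂ, IsIrrCharacter B ψ ∧ ∀ a, ψ (f a) = χ a := by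
  obtain ⟨χ', hχ', he⟩ := H75.exists_deflate_irr f.ker hχ hk
  let e := QuotientGroup.quotientKerEquivOfSurjective f hf
  refine ⟨fun b => χ' (e.symm b),
    isIrrCharacter_comp_surjective hχ' e.symm.toMonoidHom e.symm.surjective, fun a => ?_⟩
  have h1 : e.symm (f a) = (QuotientGroup.mk a : A ⧸ f.ker) := by
    rw [MulEquiv.symm_apply_eq]
    rfl
  change χ' (e.symm (f a)) = χ a
  rw [h1, he]

/-- central elements act as scalars -/
theorem central_scalar {G : Type u} [Group G] [Finite G] {χ : G → ℂ} (hχ : IsIrrCharacter G χ) {z : G}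
    (hz : ∀ x, z * x = x * z) (x : G) : χ (z * x) = χ z / χ 1 * χ x := by
  haveI := Fintype.ofFinite G
  have h1 := irr_one_ne_zero hχ
  obtain ⟨n, ρ, hρ, rfl⟩ := hχ
  obtain ⟨c, hc⟩ := exists_smul_one_of_commute ρ hρ (ρ z) (fun g => by
    rw [← map_mul, ← map_mul, hz])
  have key : ∀ y, ρ.character (z * y) = c * ρ.character y := by
    intro y
    rw [Representation.character, Representation.character, map_mul, hc, smul_mul_assoc, one_mul,
      map_smul, smul_eq_mul]
  have h2 := key 1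
  rw [mul_one] at h2
  rw [key, h2, mul_div_assoc, div_self h1, mul_one]

theorem central_value {K : Type u} [Group K] [Finite K] {χ : K → ℂ} (hχ : IsIrrCharacter K χ)
    {L : Type v} [Group L] [Fintype L] (j : L →* K) (hL : ∀ z x, j z * x = x * j z) (lam : L →* ℂ)
    (hne : classInner (fun z : L => χ (j z)) (lam : L → ℂ) ≠ 0) (z : L) (x : K) :
    χ (j z * x) = lam z * χ x := by
  haveI := Fintype.ofFinite K
  have h1 := irr_one_ne_zero hχ
  let om : L →* ℂ :=
    { toFun := fun z => χ (j z) / χ 1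
      map_one' := by simp [h1]
      map_mul' := fun a b => by
        rw [map_mul, central_scalar hχ (hL a)]
        field_simp }
  have h2 : (fun z : L => χ (j z)) = χ 1 • (om : L → ℂ) := by
    funext z
    show χ (j z) = χ 1 * (χ (j z) / χ 1)
    field_simp
  rw [h2, classInner_smul_left] at hne
  have h3 := right_ne_zero_of_mul hne
  have h4 := eq_of_classInner_ne_zero (isIrrCharacter_of_hom om) (isIrrCharacter_of_hom lam) h3
  rw [central_scalar hχ (hL z)]
  have h5 := congrFun h4 z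
  rw [← h5]
  rfl

theorem coprime_of_primes {a b n : ℕ} (ha : a.Coprime n) (hb : ∀ p : ℕ, p.Prime → p ∣ b → p ∣ n) :
    a.Coprime b := by
  rw [Nat.coprime_iff_gcd_eq_one]
  by_contra hne
  obtain ⟨p, hp, hpd⟩ := Nat.exists_prime_and_dvd hne
  have h1 : p ∣ a := hpd.trans (Nat.gcd_dvd_left _ _)
  have h2 : p ∣ n := hb p hp (hpd.trans (Nat.gcd_dvd_right _ _))
  exact hp.one_lt.ne' (Nat.dvd_one.1 (ha ▸ Nat.dvd_gcd h1 h2))

theorem central {Q : Type u} [Group Q] [Finite Q] (G Z : Subgroup Q) [hG : G.Normal]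
    (hZ : ∀ z ∈ Z, ∀ x : Q, z * x = x * z) (hZG : Z ≤ G) (hcop : G.index.Coprime (Z.relIndex G))
    (hsolv : (∃ (W : Type u) (_ : Group W) (f : Q →* W), Group.IsSolvable W ∧ f.ker ≤ G) ∨
      Group.IsSolvable G) (lam : Z →* ℂ) :
    ∃ β : G → ℂ, IsIrrCharacter G β ∧
      (∀ (z : Z) (x : G), β (⟨z, hZG z.2⟩ * x) = lam z * β x) ∧
      ∀ (q : Q) (x : G), β ⟨q * x * q⁻¹, hG.conj_mem x x.2 q⟩ = β x := by
  classical
  haveI := Fintype.ofFinite Q
  have hcen : Z.subgroupOf G ≤ Subgroup.center G := by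
    intro z hz
    rw [Subgroup.mem_center_iff]
    intro x
    exact Subtype.ext (hZ z hz x).symm
  have hc : (Subgroup.center G).index.Coprime G.index :=
    Nat.Coprime.coprime_dvd_left (Subgroup.index_dvd_of_le hcen) hcop.symm
  obtain ⟨K0, e, hmem, hKn, hidx, hab⟩ := exists_hall (G := ↥G) G.index hc
  set K : Subgroup Q := K0.map G.subtype with hK
  have hKG : K ≤ G := Subgroup.map_subtype_le _
  have hmemK : ∀ x, x ∈ K ↔ x ∈ G ∧ x ^ e = 1 := by
    intro x
    constructor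
    · rintro ⟨y, hy, rfl⟩
      exact ⟨y.2, congrArg Subtype.val ((hmem y).1 hy)⟩
    · rintro ⟨h1, h2⟩
      exact ⟨⟨x, h1⟩, (hmem _).2 (Subtype.ext h2), rfl⟩
  haveI hKnormal : K.Normal := by
    refine ⟨fun x hx q => ?_⟩
    rw [hmemK] at hx ⊢
    exact ⟨hG.conj_mem x hx.1 q, by rw [conj_pow, hx.2]; simp⟩
  have hcardK : Nat.card K = Nat.card K0 :=
    Nat.card_congr (K0.equivMapOfInjective _ G.subtype_injective).symm.toEquiv
  have hidxK : K.index = K0.index * G.index := by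
    rw [hK, Subgroup.index_map_subtype]
  have hrelK : K.relIndex G = K0.index := by
    rw [Subgroup.relIndex, hK, Subgroup.subgroupOf,
      Subgroup.comap_map_eq_self_of_injective G.subtype_injective]
  have hcopK : (Nat.card K).Coprime K.index := by
    rw [hcardK]
    apply coprime_of_primes hKn
    intro p hp hpd
    rw [hidxK] at hpd
    rcases (Nat.Prime.dvd_mul hp).1 hpd with h1 | h1
    · exact hidx p hp h1
    · exact h1
  obtain ⟨S, hS⟩ := Subgroup.exists_right_complement'_of_coprime hcopK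
  have hcardS : Nat.card S = K.index := by
    have h1 := hS.card_mul
    rw [← K.card_mul_index] at h1
    exact Nat.eq_of_mul_eq_mul_left Nat.card_pos h1
  have hcop2 : (Nat.card K).Coprime (Nat.card S) := by rw [hcardS]; exact hcopK
  set L : Subgroup Q := K ⊓ Z with hL
  have hLK : L ≤ K := inf_le_left
  have hLc : ∀ z ∈ L, ∀ x : Q, z * x = x * z := fun z hz x => hZ z hz.2 x
  let lam' : L →* ℂ := lam.comp (Subgroup.inclusion inf_le_right)
  let θ : IrrCharacter L := ⟨(lam' : L → ℂ), isIrrCharacter_of_hom lam'⟩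
  have hθinv : ∀ s ∈ S, ∀ g g' : L, (g' : Q) = s * g * s⁻¹ →
      (θ : L → ℂ) g' = (θ : L → ℂ) g := by
    intro s _ g g' hgg
    have h1 : g' = g := by
      apply Subtype.ext
      rw [hgg, ← hLc g g.2 s, mul_inv_cancel_right]
    rw [h1]
  have hnorm : ∀ s ∈ S, ∀ g ∈ K, s * g * s⁻¹ ∈ K := fun s _ g hg => hKnormal.conj_mem g hg s
  have hLn : ∀ (s : Q), ∀ n ∈ L, s * n * s⁻¹ ∈ L := by
    intro s n hn
    rw [← hLc n hn s, mul_inv_cancel_right]
    exact hn
  have hκ : ∃ κ : IrrCharacter K, classInner (fun n : L => (κ : K → ℂ) ⟨n, hLK n.2⟩)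
      (θ : L → ℂ) ≠ 0 ∧ (∀ s ∈ S, ∀ g g' : K, (g' : Q) = s * g * s⁻¹ →
        (κ : K → ℂ) g' = (κ : K → ℂ) g) := by
    rcases hsolv with ⟨W, hW, fW, h1, hker⟩ | h1
    · have hSs : Group.IsSolvable S := by
        let f : S →* W := fW.comp S.subtype
        have hfc : ∀ x y : f.ker, x * y = y * x := by
          rintro ⟨⟨x, hxS⟩, hxk⟩ ⟨⟨y, hyS⟩, hyk⟩
          have hx : x ∈ G := hker hxk
          have hy : y ∈ G := hker hyk
          have h2 : x * y * x⁻¹ * y⁻¹ ∈ K := ⟨_, hab ⟨_, hx⟩ ⟨_, hy⟩, rfl⟩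
          have h3 : x * y * x⁻¹ * y⁻¹ ∈ S :=
            S.mul_mem (S.mul_mem (S.mul_mem hxS hyS) (S.inv_mem hxS)) (S.inv_mem hyS)
          have h4 : x * y * x⁻¹ * y⁻¹ = 1 := by
            have := hS.disjoint.le_bot ⟨h2, h3⟩
            exact (Subgroup.mem_bot).1 this
          apply Subtype.ext
          apply Subtype.ext
          show x * y = y * x
          rw [mul_inv_eq_one, mul_inv_eq_iff_eq_mul] at h4
          exact h4
        haveI : Group.IsSolvable f.ker := Group.isSolvable_of_comm hfc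
        haveI := h1
        exact Group.isSolvable_of_ker_le_range f.ker.subtype f (by simp)
      exact S4449.result K S L hnorm hLK (fun g _ n hn => hLn g n hn) (fun s _ n hn => hLn s n hn)
        hcop2 hSs θ hθinv
    · haveI hLKn : (L.subgroupOf K).Normal := ⟨fun x hx g => hLn g x hx⟩
      have hGs : Group.IsSolvable G := h1
      have hKs : Group.IsSolvable K := by
        haveI := hGs
        exact Group.isSolvable_of_isSolvable_injective (Subgroup.inclusion_injective hKG)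
      haveI := hKs
      have hcop3 : (L.relIndex K).Coprime (Nat.card S) :=
        Nat.Coprime.coprime_dvd_left (Subgroup.relIndex_dvd_card _ _) hcop2
      exact S4448.result K S L hnorm hLK (fun s _ n hn => hLn s n hn) hcop3 inferInstance θ hθinv
  obtain ⟨κ, hκ1, hκ2⟩ := hκ
  have hκval : ∀ (z : L) (x : K), (κ : K → ℂ) (⟨z, hLK z.2⟩ * x) = lam' z * (κ : K → ℂ) x := by
    intro z x
    exact central_value κ.2 (Subgroup.inclusion hLK)
      (fun z x => Subtype.ext (hLc z z.2 x)) lam' hκ1 z x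
  have hκinv : ∀ (q : Q) (x : K), (κ : K → ℂ) ⟨q * x * q⁻¹, hKnormal.conj_mem x x.2 q⟩ =
      (κ : K → ℂ) x := by
    intro q x
    have hq : q ∈ K ⊔ S := by rw [hS.sup_eq_top]; exact Subgroup.mem_top q
    rw [Subgroup.mem_sup_of_normal_left] at hq
    obtain ⟨k, hk, s, hs, rfl⟩ := hq
    have h1 := hκ2 s hs x ⟨s * x * s⁻¹, hKnormal.conj_mem x x.2 s⟩ rfl
    have h2 := irr_isClassFunction κ ⟨s * x * s⁻¹, hKnormal.conj_mem x x.2 s⟩ ⟨k, hk⟩
    rw [← h1, ← h2]
    refine congrArg (κ : K → ℂ) (Subtype.ext ?_)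
    show k * s * x * (k * s)⁻¹ = k * (s * x * s⁻¹) * k⁻¹
    group
  -- G = K Z
  have hKZ : ∀ x ∈ G, ∃ k ∈ K, ∃ z ∈ Z, k * z = x := by
    have h1 : (K ⊔ Z).relIndex G = 1 := by
      have h2 : (K ⊔ Z).relIndex G ∣ K.relIndex G := Subgroup.relIndex_dvd_of_le_left _ le_sup_left
      have h3 : (K ⊔ Z).relIndex G ∣ Z.relIndex G := Subgroup.relIndex_dvd_of_le_left _ le_sup_right
      rw [hrelK] at h2
      have h4 : ((K ⊔ Z).relIndex G).Coprime ((K ⊔ Z).relIndex G) := by
        apply coprime_of_primes (n := G.index)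
        · exact Nat.Coprime.coprime_dvd_left h3 hcop.symm
        · intro p hp hpd
          exact hidx p hp (hpd.trans h2)
      exact Nat.coprime_self _ |>.1 h4
    rw [Subgroup.relIndex_eq_one] at h1
    intro x hx
    have h2 := h1 hx
    rw [Subgroup.mem_sup_of_normal_left] at h2
    exact h2
  let f : K × Z →* G := MonoidHom.mk' (fun a => ⟨a.1 * a.2, G.mul_mem (hKG a.1.2) (hZG a.2.2)⟩)
    (fun a b => Subtype.ext (by
      show ((a.1 * b.1 : K) : Q) * ((a.2 * b.2 : Z) : Q) = a.1 * a.2 * (b.1 * b.2)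
      rw [Subgroup.coe_mul, Subgroup.coe_mul, mul_assoc, ← mul_assoc (b.1 : Q), ← hZ a.2 a.2.2 b.1]
      simp only [mul_assoc]))
  have hf : Function.Surjective f := by
    rintro ⟨x, hx⟩
    obtain ⟨k, hk, z, hz, rfl⟩ := hKZ x hx
    exact ⟨(⟨k, hk⟩, ⟨z, hz⟩), rfl⟩
  have hχ1 : IsIrrCharacter (K × Z) (fun a => lam a.2 * (κ : K → ℂ) a.1) := by
    refine GD.isIrr_linear_mul (lam := fun a : K × Z => lam a.2) (θ := fun a : K × Z => (κ : K → ℂ) a.1)
      (isCharacter_comp (isCharacter_of_hom lam) (MonoidHom.snd K Z)) (map_one lam) ?_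
    exact isIrrCharacter_comp_surjective κ.2 (MonoidHom.fst K Z) Prod.fst_surjective
  obtain ⟨β, hβ, hβ2⟩ := deflate_surj f hf hχ1 (by
    rintro ⟨⟨k, hk⟩, ⟨z, hz⟩⟩ ha
    have h1 : k * z = 1 := congrArg Subtype.val ha
    have h2 : k ∈ Z := by
      rw [mul_eq_one_iff_eq_inv] at h1
      rw [h1]; exact Z.inv_mem hz
    have h3 := hκval ⟨k, hk, h2⟩ 1
    rw [mul_one] at h3
    show lam ⟨z, hz⟩ * (κ : K → ℂ) ⟨k, hk⟩ = lam 1 * (κ : K → ℂ) 1
    rw [h3, map_one, one_mul, ← mul_assoc]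
    show lam ⟨z, hz⟩ * lam ⟨k, h2⟩ * (κ : K → ℂ) 1 = (κ : K → ℂ) 1
    rw [← map_mul]
    have h4 : (⟨z, hz⟩ : Z) * ⟨k, h2⟩ = 1 := by
      apply Subtype.ext
      show z * k = 1
      rw [hZ z hz k, h1]
    rw [h4, map_one, one_mul])
  refine ⟨β, hβ, ?_, ?_⟩
  · intro z x
    obtain ⟨⟨k, z'⟩, rfl⟩ := hf x
    have h1 : (⟨z, hZG z.2⟩ : G) * f (k, z') = f (k, z * z') := by
      apply Subtype.ext
      show (z : Q) * (k * z') = k * ((z * z' : Z) : Q)
      rw [Subgroup.coe_mul, ← mul_assoc, ← mul_assoc, hZ z z.2 k]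
    rw [h1, hβ2, hβ2]
    show lam (z * z') * (κ : K → ℂ) k = lam z * (lam z' * (κ : K → ℂ) k)
    rw [map_mul, mul_assoc]
  · intro q x
    obtain ⟨⟨k, z'⟩, rfl⟩ := hf x
    have h1 : (⟨q * (f (k, z') : G) * q⁻¹, hG.conj_mem _ (f (k, z')).2 q⟩ : G) =
        f (⟨q * k * q⁻¹, hKnormal.conj_mem k k.2 q⟩, z') := by
      apply Subtype.ext
      show q * ((k : Q) * z') * q⁻¹ = q * k * q⁻¹ * z'
      rw [mul_assoc (q * k), ← hZ z' z'.2 q⁻¹]
      simp only [mul_assoc]
    rw [h1, hβ2, hβ2]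
    show lam z' * (κ : K → ℂ) ⟨q * k * q⁻¹, _⟩ = lam z' * (κ : K → ℂ) k
    rw [hκinv]

end Cfsg.Agent.H42.IA
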