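import Cfsg.Agent.Char.Extension
import Cfsg.Agent.Char.IndRep

set_option autoImplicit false

/-! A finite central extension of `Γ` over which an invariant irreducible representation of a normal
subgroup extends. -/

open Cfsg Cfsg.Agent.Char Cfsg.Agent.CharBase

namespace Cfsg.Agent.H42.IA

universe u

variable {Γ : Type u} [Group Γ] (N : Subgroup Γ) [hN : N.Normal] {d : ℕ}
  (ρ : Representation ℂ N (Fin d → ℂ))

/-- the pairs `(g, U)` with `U` intertwining `ρ` and its conjugate by `g`. -/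
def PG : Subgroup (Γ × (Module.End ℂ (Fin d → ℂ))ˣ) where
  carrier := {x | (∀ n : N, (x.2 : Module.End ℂ (Fin d → ℂ)) * ρ n =
      ρ (MulAut.conjNormal x.1 n) * x.2) ∧
      LinearMap.det (x.2 : Module.End ℂ (Fin d → ℂ)) ^ Nat.card N = 1}
  one_mem' := by
    refine ⟨fun n => ?_, ?_⟩
    · simp
    · simp
  mul_mem' := by
    rintro x y ⟨hx, hx2⟩ ⟨hy, hy2⟩
    refine ⟨fun n => ?_, ?_⟩
    · show ((x.2 * y.2 : (Module.End ℂ (Fin d → ℂ))ˣ) : Module.End ℂ (Fin d → ℂ)) * ρ n =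
        ρ (MulAut.conjNormal (x.1 * y.1) n) * (x.2 * y.2 : (Module.End ℂ (Fin d → ℂ))ˣ)
      rw [Units.val_mul, mul_assoc, hy, ← mul_assoc, hx, mul_assoc, map_mul]
      rfl
    · show LinearMap.det ((x.2 * y.2 : (Module.End ℂ (Fin d → ℂ))ˣ) :
        Module.End ℂ (Fin d → ℂ)) ^ Nat.card N = 1
      rw [Units.val_mul, map_mul, mul_pow, hx2, hy2, one_mul]
  inv_mem' := by
    rintro x ⟨hx, hx2⟩
    refine ⟨fun n => ?_, ?_⟩
    · show ((x.2⁻¹ : (Module.End ℂ (Fin d → ℂ))ˣ) : Module.End ℂ (Fin d → ℂ)) * ρ n =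
        ρ (MulAut.conjNormal (x.1⁻¹) n) * (x.2⁻¹ : (Module.End ℂ (Fin d → ℂ))ˣ)
      have h1 := hx (MulAut.conjNormal (x.1⁻¹) n)
      have h2 : MulAut.conjNormal x.1 (MulAut.conjNormal (x.1⁻¹) n) = n := by
        rw [map_inv, MulAut.apply_inv_self]
      rw [h2] at h1
      rw [Units.inv_mul_eq_iff_eq_mul, ← mul_assoc, h1, mul_assoc, Units.mul_inv, mul_one]
    · show LinearMap.det ((x.2⁻¹ : (Module.End ℂ (Fin d → ℂ))ˣ) :
        Module.End ℂ (Fin d → ℂ)) ^ Nat.card N = 1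
      have h3 : LinearMap.det ((x.2⁻¹ : (Module.End ℂ (Fin d → ℂ))ˣ) :
          Module.End ℂ (Fin d → ℂ)) * LinearMap.det (x.2 : Module.End ℂ (Fin d → ℂ)) = 1 := by
        rw [← map_mul, Units.inv_mul, map_one]
      have h4 := congrArg (fun c : ℂ => c ^ Nat.card N) h3
      simp only [mul_pow, one_pow] at h4
      rw [hx2, mul_one] at h4
      exact h4

/-- the scalar units -/
noncomputable def scal (d : ℕ) : ℂˣ →* (Module.End ℂ (Fin d → ℂ))ˣ :=
  Units.map (algebraMap ℂ (Module.End ℂ (Fin d → ℂ))).toMonoidHom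

theorem scal_val (c : ℂˣ) : ((scal d c : (Module.End ℂ (Fin d → ℂ))ˣ) :
    Module.End ℂ (Fin d → ℂ)) = (c : ℂ) • 1 := by
  show algebraMap ℂ (Module.End ℂ (Fin d → ℂ)) c = _
  rw [Algebra.algebraMap_eq_smul_one]

theorem det_scal (c : ℂˣ) : LinearMap.det ((scal d c : (Module.End ℂ (Fin d → ℂ))ˣ) :
    Module.End ℂ (Fin d → ℂ)) = (c : ℂ) ^ d := by
  rw [scal_val, LinearMap.det_smul, map_one, mul_one, Module.finrank_fin_fun]

variable {ρ}

theorem exists_scal (hρ : ρ.IsIrreducible) (U : (Module.End ℂ (Fin d → ℂ))ˣ)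
    (hU : ∀ n : N, (U : Module.End ℂ (Fin d → ℂ)) * ρ n = ρ n * U) : ∃ c : ℂˣ, U = scal d c := by
  obtain ⟨c, hc⟩ := exists_smul_one_of_commute ρ hρ U hU
  haveI := nontrivial_of_irreducible_rep ρ hρ
  have hc0 : c ≠ 0 := by
    rintro rfl
    rw [zero_smul] at hc
    exact U.ne_zero hc
  refine ⟨Units.mk0 c hc0, Units.ext ?_⟩
  rw [scal_val, hc]
  rfl

theorem exists_inter [Finite Γ] (hρ : ρ.IsIrreducible)
    (hinv : ∀ g : Γ, cj N g ρ.character = ρ.character) (g : Γ) :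
    ∃ t : (Module.End ℂ (Fin d → ℂ))ˣ, (∀ n : N, (t : Module.End ℂ (Fin d → ℂ)) * ρ n =
      ρ (MulAut.conjNormal g n) * t) ∧ LinearMap.det (t : Module.End ℂ (Fin d → ℂ)) = 1 := by
  obtain ⟨T, hT⟩ := exists_twist N ρ hρ hinv
  haveI := nontrivial_of_irreducible_rep ρ hρ
  have hd : d ≠ 0 := by
    rintro rfl
    exact not_subsingleton (Fin 0 → ℂ) inferInstance
  have hdet : LinearMap.det (T g : Module.End ℂ (Fin d → ℂ)) ≠ 0 := by
    intro h0
    have h3 : LinearMap.det (((T g)⁻¹ : (Module.End ℂ (Fin d → ℂ))ˣ) :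
        Module.End ℂ (Fin d → ℂ)) * LinearMap.det (T g : Module.End ℂ (Fin d → ℂ)) = 1 := by
      rw [← map_mul, Units.inv_mul, map_one]
    rw [h0, mul_zero] at h3
    exact zero_ne_one h3
  obtain ⟨r, hr⟩ := IsAlgClosed.exists_pow_nat_eq
    (LinearMap.det (T g : Module.End ℂ (Fin d → ℂ)))⁻¹ (Nat.pos_of_ne_zero hd)
  have hr0 : r ≠ 0 := by
    rintro rfl
    rw [zero_pow hd] at hr
    exact inv_ne_zero hdet hr.symm
  refine ⟨scal d (Units.mk0 r hr0) * T g, fun n => ?_, ?_⟩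
  · have h1 := hT.inter g n
    have h2 : (MulAut.conjNormal g n) = ⟨g * n * g⁻¹, hN.conj_mem (n : Γ) n.2 g⟩ :=
      Subtype.ext (MulAut.conjNormal_apply g n)
    rw [h2, Units.val_mul, scal_val, smul_mul_assoc, one_mul, smul_mul_assoc, h1, mul_smul_comm]
  · rw [Units.val_mul, map_mul, det_scal, Units.val_mk0, hr, inv_mul_cancel₀ hdet]

theorem finite_PG [Finite Γ] (hρ : ρ.IsIrreducible)
    (hinv : ∀ g : Γ, cj N g ρ.character = ρ.character) : Finite (PG N ρ) := by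
  classical
  haveI := nontrivial_of_irreducible_rep ρ hρ
  have hd : d ≠ 0 := by
    rintro rfl
    exact not_subsingleton (Fin 0 → ℂ) inferInstance
  choose t ht htd using exists_inter N hρ hinv
  have hcard : Nat.card N ≠ 0 := Nat.card_pos.ne'
  haveI : NeZero (d * Nat.card N) := ⟨mul_ne_zero hd hcard⟩
  let F : Γ × rootsOfUnity (d * Nat.card N) ℂ → Γ × (Module.End ℂ (Fin d → ℂ))ˣ :=
    fun a => (a.1, scal d (a.2 : ℂˣ) * t a.1)
  have hsub : (PG N ρ : Set (Γ × (Module.End ℂ (Fin d → ℂ))ˣ)) ⊆ Set.range F := by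
    rintro ⟨g, U⟩ ⟨h1, h2⟩
    obtain ⟨c, hc⟩ := exists_scal N hρ (U * (t g)⁻¹) (fun n => by
      have h3 := ht g (MulAut.conjNormal g⁻¹ n)
      have h4 : MulAut.conjNormal g (MulAut.conjNormal g⁻¹ n) = n := by
        rw [map_inv, MulAut.apply_inv_self]
      rw [h4] at h3
      have h5 := h1 (MulAut.conjNormal g⁻¹ n)
      simp only at h5
      rw [h4] at h5
      have h6 : (((t g)⁻¹ : (Module.End ℂ (Fin d → ℂ))ˣ) : Module.End ℂ (Fin d → ℂ)) * ρ n =
          ρ (MulAut.conjNormal g⁻¹ n) * ((t g)⁻¹ : (Module.End ℂ (Fin d → ℂ))ˣ) := by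
        rw [Units.inv_mul_eq_iff_eq_mul, ← mul_assoc, h3, mul_assoc, Units.mul_inv, mul_one]
      rw [Units.val_mul, mul_assoc, h6, ← mul_assoc, h5, mul_assoc])
    have hU : U = scal d c * t g := by rw [← hc, inv_mul_cancel_right]
    have hc2 : c ∈ rootsOfUnity (d * Nat.card N) ℂ := by
      simp only at h2
      rw [hU, Units.val_mul, map_mul, det_scal, htd, mul_one, ← pow_mul] at h2
      rw [mem_rootsOfUnity]
      exact Units.ext (by rw [Units.val_pow_eq_pow_val]; exact h2)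
    exact ⟨(g, ⟨c, hc2⟩), by rw [hU]⟩
  exact (Set.finite_range F).subset hsub

/-- the covering group. -/
theorem exists_cover [Finite Γ] (hρ : ρ.IsIrreducible)
    (hinv : ∀ g : Γ, cj N g ρ.character = ρ.character) :
    ∃ (P : Type u) (_ : Group P) (_ : Finite P) (p : P →* Γ)
      (τ : Representation ℂ P (Fin d → ℂ)) (D : N →* P), Function.Surjective p ∧
      (∀ n, p (D n) = n) ∧ (∀ n, τ (D n) = ρ n) ∧
      (∀ x n, x * D n * x⁻¹ = D (MulAut.conjNormal (p x) n)) ∧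
      (∀ z, p z = 1 → ∃ c : ℂ, τ z = c • 1) ∧ (∀ z, p z = 1 → ∀ x, z * x = x * z) := by
  classical
  haveI := finite_PG N hρ hinv
  let p : PG N ρ →* Γ := (MonoidHom.fst _ _).comp (PG N ρ).subtype
  let τ : PG N ρ →* (Module.End ℂ (Fin d → ℂ)) :=
    (Units.coeHom _).comp ((MonoidHom.snd _ _).comp (PG N ρ).subtype)
  let D : N →* PG N ρ := MonoidHom.mk' (fun n => ⟨((n : Γ), ρ.toHomUnits n), by
      refine ⟨fun m => ?_, ?_⟩
      · show (ρ n) * ρ m = ρ (MulAut.conjNormal (n : Γ) m) * ρ n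
        rw [← map_mul, ← map_mul]
        congr 1
        apply Subtype.ext
        rw [Subgroup.coe_mul, Subgroup.coe_mul, MulAut.conjNormal_apply, inv_mul_cancel_right]
      · show LinearMap.det (ρ n) ^ Nat.card N = 1
        rw [← map_pow, ← map_pow, pow_card_eq_one', map_one, map_one]⟩)
    (fun n m => Subtype.ext (Prod.ext rfl (map_mul ρ.toHomUnits n m)))
  have hscal : ∀ z : PG N ρ, p z = 1 → ∃ c : ℂˣ, z.1.2 = scal d c := by
    intro z hz
    apply exists_scal N hρ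
    intro n
    have h1 := z.2.1 n
    have h2 : z.1.1 = 1 := hz
    rw [h2, map_one] at h1
    exact h1
  refine ⟨PG N ρ, inferInstance, inferInstance, p, τ, D, ?_, fun n => rfl, fun n => rfl, ?_, ?_, ?_⟩
  · intro g
    obtain ⟨t, ht, htd⟩ := exists_inter N hρ hinv g
    exact ⟨⟨(g, t), ht, by rw [htd, one_pow]⟩, rfl⟩
  · intro x n
    apply Subtype.ext
    apply Prod.ext
    · show x.1.1 * n * x.1.1⁻¹ = ((MulAut.conjNormal x.1.1 n : N) : Γ)
      rw [MulAut.conjNormal_apply]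
    · show x.1.2 * ρ.toHomUnits n * x.1.2⁻¹ = ρ.toHomUnits (MulAut.conjNormal x.1.1 n)
      rw [mul_inv_eq_iff_eq_mul]
      exact Units.ext (x.2.1 n)
  · intro z hz
    obtain ⟨c, hc⟩ := hscal z hz
    refine ⟨c, ?_⟩
    show ((z.1.2 : (Module.End ℂ (Fin d → ℂ))ˣ) : Module.End ℂ (Fin d → ℂ)) = _
    rw [hc, scal_val]
  · intro z hz x
    obtain ⟨c, hc⟩ := hscal z hz
    have h2 : z.1.1 = 1 := hz
    apply Subtype.ext
    apply Prod.ext
    · show z.1.1 * x.1.1 = x.1.1 * z.1.1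
      rw [h2, one_mul, mul_one]
    · show z.1.2 * x.1.2 = x.1.2 * z.1.2
      apply Units.ext
      rw [hc, Units.val_mul, Units.val_mul, scal_val, smul_mul_assoc, mul_smul_comm, one_mul,
        mul_one]

end Cfsg.Agent.H42.IA
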