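import Cfsg.Agent.H42.InvAbA
import Cfsg.Agent.H42.InvAbB
import Cfsg.Agent.Char.RelGlaub
import Cfsg.Agent.Char.Berger

set_option autoImplicit false
set_option linter.style.haveILetI false

/-! Invariant characters above an invariant character in coprime layers. -/

open Cfsg Cfsg.Agent.Char Cfsg.Agent.CharBase

namespace Cfsg.Agent.H42.IA

universe u

theorem main {Γ : Type u} [Group Γ] [Fintype Γ] (G N : Subgroup Γ) [hG : G.Normal] [hN : N.Normal]
    [Fintype G] [Fintype N] (hNG : N ≤ G) (hcop : (G.index).Coprime (N.relIndex G))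
    (hsolv : Group.IsSolvable (Γ ⧸ G) ∨ Group.IsSolvable (G ⧸ N.subgroupOf G))
    (θ : IrrCharacter N)
    (hinv : ∀ (x : Γ) (n : N), (θ : N → ℂ) ⟨x * n * x⁻¹, hN.conj_mem n n.2 x⟩ = (θ : N → ℂ) n) :
    ∃ χ : IrrCharacter G,
      classInner (fun n : N => (χ : G → ℂ) ⟨n, hNG n.2⟩) (θ : N → ℂ) ≠ 0 ∧
      ∀ (x : Γ) (g : G), (χ : G → ℂ) ⟨x * g * x⁻¹, hG.conj_mem g g.2 x⟩ = (χ : G → ℂ) g := by
  classical
  obtain ⟨θ, d, ρ, hρ, rfl⟩ := θ
  have hinv' : ∀ g : Γ, cj N g ρ.character = ρ.character := by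
    intro g
    funext n
    exact hinv _ n
  obtain ⟨P, iP, fP, p, τ, D, hp, hpD, hτD, hconj, hker, hcent⟩ := exists_cover N hρ hinv'
  haveI := nontrivial_of_irreducible_rep ρ hρ
  haveI : Fintype P := Fintype.ofFinite P
  -- the normal subgroup N0
  set N0 : Subgroup P := D.range with hN0
  haveI hN0n : N0.Normal := by
    refine ⟨?_⟩
    rintro _ ⟨n, rfl⟩ x
    exact ⟨_, (hconj x n).symm⟩
  set mk : P →* P ⧸ N0 := QuotientGroup.mk' N0 with hmk
  have hmks : Function.Surjective mk := QuotientGroup.mk'_surjective N0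
  have hmk1 : ∀ x : P, mk x = 1 ↔ x ∈ N0 := fun x => QuotientGroup.eq_one_iff x
  set Gs : Subgroup P := G.comap p with hGs
  have hN0G : N0 ≤ Gs := by
    rintro _ ⟨n, rfl⟩
    show p (D n) ∈ G
    rw [hpD]; exact hNG n.2
  set Gh : Subgroup (P ⧸ N0) := Gs.map mk with hGh
  haveI hGhn : Gh.Normal := (inferInstance : Gs.Normal).map mk hmks
  have hGcomap : Gh.comap mk = Gs := by
    rw [hGh, Subgroup.comap_map_eq_self]
    rw [hmk, QuotientGroup.ker_mk']; exact hN0G
  have hGidx : Gh.index = G.index := by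
    rw [← Subgroup.index_comap_of_surjective Gh hmks, hGcomap, hGs,
      Subgroup.index_comap_of_surjective G hp]
  -- the central subgroup
  set Zs : Subgroup P := p.ker with hZs
  let j : Zs →* P ⧸ N0 := mk.comp Zs.subtype
  have hj : Function.Injective j := by
    rw [injective_iff_map_eq_one]
    intro z hz
    obtain ⟨n, hn⟩ := (hmk1 _).1 hz
    have h1 : p (z : P) = 1 := z.2
    have hn' : D n = (z : P) := hn
    have h2 : n = 1 := by
      apply Subtype.ext
      rw [← hpD n, hn', h1]; rfl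
    rw [h2, map_one] at hn'
    exact Subtype.ext hn'.symm
  set Zh : Subgroup (P ⧸ N0) := j.range with hZh
  have hZhc : ∀ z ∈ Zh, ∀ x : P ⧸ N0, z * x = x * z := by
    rintro _ ⟨z, rfl⟩ x
    obtain ⟨y, rfl⟩ := hmks x
    show mk z * mk y = mk y * mk z
    rw [← map_mul, ← map_mul, hcent z z.2]
  have hZG : Zh ≤ Gh := by
    rintro _ ⟨z, rfl⟩
    refine ⟨z, ?_, rfl⟩
    show p (z : P) ∈ G
    rw [show p (z : P) = 1 from z.2]
    exact G.one_mem
  have hZcomap : Zh.comap mk = N.comap p := by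
    ext x
    constructor
    · rintro ⟨z, hz⟩
      have hz' : mk (z : P) = mk x := hz
      rw [← inv_mul_eq_one, ← map_inv, ← map_mul, hmk1] at hz'
      obtain ⟨n, hn⟩ := hz'
      have h1 := congrArg p hn
      rw [hpD, map_mul, map_inv, show p (z : P) = 1 from z.2, inv_one, one_mul] at h1
      show p x ∈ N
      rw [← h1]; exact n.2
    · intro hx
      have hx' : p x ∈ N := hx
      refine ⟨⟨x * (D ⟨p x, hx'⟩)⁻¹, ?_⟩, ?_⟩
      · show p (x * (D ⟨p x, hx'⟩)⁻¹) = 1
        rw [map_mul, map_inv, hpD, mul_inv_cancel]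
      · show mk (x * (D ⟨p x, hx'⟩)⁻¹) = mk x
        rw [map_mul, map_inv, (hmk1 (D ⟨p x, hx'⟩)).2 ⟨_, rfl⟩, inv_one, mul_one]
  have hrel : Zh.relIndex Gh = N.relIndex G := by
    rw [hGh, ← Subgroup.relIndex_comap, hZcomap, Subgroup.relIndex_comap, hGs,
      Subgroup.map_comap_eq_self_of_surjective hp]
  -- solvability
  have hsolv' : (∃ (W : Type u) (_ : Group W) (f : P ⧸ N0 →* W), Group.IsSolvable W ∧ f.ker ≤ Gh) ∨
      Group.IsSolvable Gh := by
    rcases hsolv with h1 | h1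
    · left
      let f : P ⧸ N0 →* Γ ⧸ G := QuotientGroup.lift N0 ((QuotientGroup.mk' G).comp p) (by
        intro x hx
        have : p x ∈ G := hN0G hx
        exact (QuotientGroup.eq_one_iff (p x)).2 this)
      refine ⟨Γ ⧸ G, inferInstance, f, h1, ?_⟩
      intro q hq
      obtain ⟨x, rfl⟩ := hmks q
      have h2 : QuotientGroup.mk' G (p x) = 1 := hq
      exact ⟨x, (QuotientGroup.eq_one_iff (p x)).1 h2, rfl⟩
    · right
      have hNN : ∀ x ∈ N0, ((QuotientGroup.mk' N).comp p) x = 1 := by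
        rintro _ ⟨n, rfl⟩
        show QuotientGroup.mk' N (p (D n)) = 1
        rw [hpD]
        exact (QuotientGroup.eq_one_iff (n : Γ)).2 n.2
      let r : P ⧸ N0 →* Γ ⧸ N := QuotientGroup.lift N0 ((QuotientGroup.mk' N).comp p) hNN
      let h : G ⧸ N.subgroupOf G →* Γ ⧸ N :=
        QuotientGroup.lift (N.subgroupOf G) ((QuotientGroup.mk' N).comp G.subtype) (by
          intro x hx
          exact (QuotientGroup.eq_one_iff (x : Γ)).2 hx)
      haveI := h1
      haveI hrs : Group.IsSolvable h.range :=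
        Group.isSolvable_of_surjective h.rangeRestrict_surjective
      let g' : Gh →* h.range := (r.comp Gh.subtype).codRestrict h.range (by
        rintro ⟨q, hq⟩
        obtain ⟨x, hx, rfl⟩ := hq
        exact ⟨QuotientGroup.mk (⟨p x, hx⟩ : G), rfl⟩)
      have hgc : ∀ a b : g'.ker, a * b = b * a := by
        rintro ⟨⟨a, haG⟩, ha⟩ ⟨⟨b, hbG⟩, hb⟩
        have h2 : a ∈ Zh := by
          obtain ⟨x, hx⟩ := hmks a
          have h3 : r a = 1 := congrArg Subtype.val ha
          rw [← hx] at h3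
          have h4 : p x ∈ N := (QuotientGroup.eq_one_iff (p x)).1 h3
          have h5 : x ∈ Zh.comap mk := by rw [hZcomap]; exact h4
          rw [← hx]; exact h5
        apply Subtype.ext
        apply Subtype.ext
        exact hZhc a h2 b
      haveI : Group.IsSolvable g'.ker := Group.isSolvable_of_comm hgc
      exact Group.isSolvable_of_ker_le_range g'.ker.subtype g' (by simp)
  -- the linear character
  choose sc hsc using fun z : Zs => hker z z.2
  have hinj : ∀ a b : ℂ, a • (1 : Module.End ℂ (Fin d → ℂ)) = b • 1 → a = b := by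
    intro a b hab
    obtain ⟨v, hv⟩ := exists_ne (0 : Fin d → ℂ)
    have h1 := congrArg (fun f : Module.End ℂ (Fin d → ℂ) => f v) hab
    simp only [LinearMap.smul_apply, Module.End.one_apply] at h1
    exact smul_left_injective ℂ hv h1
  have hsc1 : sc 1 = 1 := by
    apply hinj
    rw [← hsc 1, Subgroup.coe_one, map_one, one_smul]
  have hscm : ∀ a b, sc (a * b) = sc a * sc b := by
    intro a b
    apply hinj
    rw [← hsc, Subgroup.coe_mul, map_mul, hsc, hsc, smul_mul_smul_comm, one_mul]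
  let lam0 : Zs →* ℂ :=
    { toFun := fun z => sc z⁻¹
      map_one' := by rw [inv_one, hsc1]
      map_mul' := fun a b => by rw [mul_inv_rev, hscm, mul_comm] }
  let e : Zs ≃* Zh := MonoidHom.ofInjective hj
  let lam : Zh →* ℂ := lam0.comp e.symm.toMonoidHom
  have hlam : ∀ z : Zs, lam (e z) = sc z⁻¹ := by
    intro z
    show sc (e.symm (e z))⁻¹ = sc z⁻¹
    rw [MulEquiv.symm_apply_apply]
  obtain ⟨β, hβ, hβ1, hβ2⟩ := central Gh Zh hZhc hZG (by rw [hGidx, hrel]; exact hcop) hsolv' lam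
  -- the product character
  let gm : Gs →* Gh := mk.subgroupMap Gs
  have hgm : Function.Surjective gm := mk.subgroupMap_surjective Gs
  have hgmv : ∀ x : Gs, ((gm x : Gh) : P ⧸ N0) = mk x := fun x => rfl
  set M0 : Subgroup Gs := N0.subgroupOf Gs with hM0
  have hgm1 : ∀ x ∈ M0, gm x = 1 := by
    intro x hx
    apply Subtype.ext
    rw [hgmv]
    exact (hmk1 _).2 hx
  have hβ' : IsIrrCharacter Gs (fun x => β (gm x)) := isIrrCharacter_comp_surjective hβ gm hgm
  obtain ⟨α, hα, hα2⟩ := H75.exists_deflate_irr M0 hβ' (by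
    intro x hx
    show β (gm x) = β (gm 1)
    rw [hgm1 x hx, map_one])
  let fN : N →* Gs := D.codRestrict Gs (fun n => hN0G ⟨n, rfl⟩)
  have hEc : IsCharacter Gs (fun x : Gs => τ.character x) := ⟨d, τ.comp Gs.subtype, rfl⟩
  have hEv : ∀ n, τ.character (D n) = ρ.character n := by
    intro n
    show LinearMap.trace ℂ _ (τ (D n)) = LinearMap.trace ℂ _ (ρ n)
    rw [hτD]
  have hE : IsIrrCharacter Gs (fun x : Gs => τ.character x) := by
    refine BG.isIrr_of_comp fN hEc ?_
    have : (fun n => (fun x : Gs => τ.character x) (fN n)) = ρ.character := funext fun n => hEv n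
    rw [this]
    exact ⟨d, ρ, hρ, rfl⟩
  have hEQ : IsIrrCharacter M0 (fun q : M0 => τ.character (q : Gs)) := by
    let fM : N →* M0 := fN.codRestrict M0 (fun n => ⟨n, rfl⟩)
    refine BG.isIrr_of_comp fM (isCharacter_restrict hEc M0) ?_
    have : (fun n => (fun q : M0 => τ.character ((q : Gs) : P)) (fM n)) = ρ.character :=
      funext fun n => hEv n
    rw [this]
    exact ⟨d, ρ, hρ, rfl⟩
  have hX := RG.isIrr_mul_ext M0 hE hEQ hα
  have hX2 : (fun h : Gs => α (QuotientGroup.mk h) * τ.character h) =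
      fun h : Gs => β (gm h) * τ.character h := by
    funext h
    rw [hα2]
  rw [hX2] at hX
  let pg : Gs →* G := p.subgroupComap G
  have hpg : Function.Surjective pg := p.subgroupComap_surjective_of_surjective G hp
  have hpgv : ∀ x : Gs, ((pg x : G) : Γ) = p x := fun x => rfl
  obtain ⟨χ, hχ, hχ2⟩ := deflate_surj pg hpg hX (by
    intro a ha
    have hpa : p (a : P) = 1 := congrArg Subtype.val ha
    set z : Zs := ⟨a, hpa⟩ with hz
    have h1 : gm a = ⟨(e z : Zh), hZG (e z).2⟩ * 1 := by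
      rw [mul_one]
      exact Subtype.ext rfl
    have h2 : τ.character (a : P) = sc z * τ.character (1 : P) := by
      show LinearMap.trace ℂ _ (τ (z : P)) = sc z * LinearMap.trace ℂ _ (τ 1)
      rw [hsc, map_one, map_smul, smul_eq_mul]
    have h3 : sc z⁻¹ * sc z = 1 := by rw [← hscm, inv_mul_cancel, hsc1]
    show β (gm a) * τ.character (a : P) = β (gm 1) * τ.character ((1 : Gs) : P)
    rw [h1, hβ1, hlam, h2, map_one, Subgroup.coe_one]
    calc sc z⁻¹ * β 1 * (sc z * τ.character 1) = (sc z⁻¹ * sc z) * (β 1 * τ.character 1) := by ring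
      _ = _ := by rw [h3, one_mul])
  refine ⟨⟨χ, hχ⟩, ?_, ?_⟩
  · have h1 : (fun n : N => χ ⟨n, hNG n.2⟩) = β 1 • ρ.character := by
      funext n
      have h2 : (⟨n, hNG n.2⟩ : G) = pg (fN n) := by
        apply Subtype.ext
        rw [hpgv]
        exact (hpD n).symm
      have h3 : gm (fN n) = 1 := hgm1 _ ⟨n, rfl⟩
      rw [h2, hχ2, h3]
      show β 1 * τ.character (D n) = β 1 * ρ.character n
      rw [hEv]
    show classInner (fun n : N => χ ⟨n, hNG n.2⟩) ρ.character ≠ 0
    rw [h1, classInner_smul_left, classInner_self_of_irr ⟨d, ρ, hρ, rfl⟩, mul_one]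
    exact irr_one_ne_zero hβ
  · intro x g
    obtain ⟨X, rfl⟩ := hp x
    obtain ⟨Y, rfl⟩ := hpg g
    have hXY : X * Y * X⁻¹ ∈ Gs := (inferInstance : Gs.Normal).conj_mem Y Y.2 X
    have h1 : (⟨p X * (pg Y : G) * (p X)⁻¹, hG.conj_mem _ (pg Y).2 (p X)⟩ : G) =
        pg ⟨X * Y * X⁻¹, hXY⟩ := by
      apply Subtype.ext
      show p X * p Y * (p X)⁻¹ = p (X * Y * X⁻¹)
      rw [map_mul, map_mul, map_inv]
    have h2 : gm ⟨X * Y * X⁻¹, hXY⟩ =
        ⟨mk X * (gm Y : Gh) * (mk X)⁻¹, hGhn.conj_mem _ (gm Y).2 (mk X)⟩ := by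
      apply Subtype.ext
      rw [hgmv]
      show mk (X * Y * X⁻¹) = mk X * mk Y * (mk X)⁻¹
      rw [map_mul, map_mul, map_inv]
    show χ ⟨p X * (pg Y : G) * (p X)⁻¹, _⟩ = χ (pg Y)
    rw [h1, hχ2, hχ2, h2, hβ2]
    congr 1
    have h3 : IsCharacter P τ.character := ⟨d, τ, rfl⟩
    exact isClassFunction_of_isCharacter h3 (Y : P) X

end Cfsg.Agent.H42.IA
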