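import Cfsg.Agent.Orth.Homs
import Cfsg.Agent.Orth.Tools

set_option autoImplicit false

/-!
Elements of order three in orthogonal groups over the field with three elements: the logarithm
`n = x⁻¹ - x` and its inverse.
-/

namespace Cfsg.Agent.H42.OT

open QuadraticMap Cfsg.Agent.Orth

theorem z3a : ∀ p : ZMod 3, p = -p → p = 0 := by decide
theorem z3b : ∀ a b : ZMod 3, 2 * a = -b → a = b := by decide
theorem z3c : (3 : ZMod 3) = 0 := by decide
theorem z3d : (2 : ZMod 3) ≠ 0 := by decide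

variable {V : Type*} [AddCommGroup V] [Module (ZMod 3) V] {Q : QuadraticForm (ZMod 3) V}

theorem three_smul' (v : V) : (3 : ZMod 3) • v = 0 := by rw [z3c, zero_smul]

/-- skew maps of cube zero. -/
structure SN (Q : QuadraticForm (ZMod 3) V) (n : V →ₗ[ZMod 3] V) : Prop where
  skew : ∀ v w, polar Q (n v) w = - polar Q v (n w)
  cube : ∀ v, n (n (n v)) = 0

theorem SN.self {n : V →ₗ[ZMod 3] V} (h : SN Q n) (v : V) : polar Q v (n v) = 0 := by
  have := h.skew v v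
  rw [pc] at this
  exact z3a _ this

theorem SN.q {n : V →ₗ[ZMod 3] V} (h : SN Q n) (v : V) : Q (n v) = polar Q v (n (n v)) := by
  have := h.skew v (n v)
  rw [pself] at this
  exact z3b _ _ this

theorem SN.qq {n : V →ₗ[ZMod 3] V} (h : SN Q n) (v : V) : Q (n (n v)) = 0 := by
  rw [h.q, h.cube, polar_zero_right]

theorem SN.neg {n : V →ₗ[ZMod 3] V} (h : SN Q n) : SN Q (-n) where
  skew v w := by
    rw [LinearMap.neg_apply, LinearMap.neg_apply, polar_neg_left, polar_neg_right, h.skew]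
  cube v := by simp [h.cube]

/-- The logarithm of an element of order three. -/
def nn (x : OGrp Q) : V →ₗ[ZMod 3] V :=
  (((x⁻¹ : OGrp Q) : V ≃ₗ[ZMod 3] V) : V →ₗ[ZMod 3] V) - ((x : V ≃ₗ[ZMod 3] V) : V →ₗ[ZMod 3] V)

theorem nn_apply (x : OGrp Q) (v : V) :
    nn x v = ((x⁻¹ : OGrp Q) : V ≃ₗ[ZMod 3] V) v - (x : V ≃ₗ[ZMod 3] V) v := rfl

theorem polar_inv (x : OGrp Q) (v w : V) :
    polar Q (((x⁻¹ : OGrp Q) : V ≃ₗ[ZMod 3] V) v) w = polar Q v ((x : V ≃ₗ[ZMod 3] V) w) := by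
  have := OGrp_polar x (((x⁻¹ : OGrp Q) : V ≃ₗ[ZMod 3] V) v) w
  rw [coe_apply_inv_self] at this
  exact this.symm

theorem polar_inv' (x : OGrp Q) (v w : V) :
    polar Q ((x : V ≃ₗ[ZMod 3] V) v) w = polar Q v (((x⁻¹ : OGrp Q) : V ≃ₗ[ZMod 3] V) w) := by
  have := polar_inv x⁻¹ v w
  rwa [inv_inv] at this

theorem inv_sq {x : OGrp Q} (hx : x ^ 3 = 1) (v : V) :
    ((x⁻¹ : OGrp Q) : V ≃ₗ[ZMod 3] V) (((x⁻¹ : OGrp Q) : V ≃ₗ[ZMod 3] V) v) = (x : V ≃ₗ[ZMod 3] V) v := by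
  rw [← coe_mul_apply]
  have : x⁻¹ * x⁻¹ = x := by
    have h1 : x * x * x = 1 := by rw [← hx, pow_succ, pow_two]
    calc x⁻¹ * x⁻¹ = x⁻¹ * x⁻¹ * (x * x * x) := by rw [h1, mul_one]
      _ = x := by group
  rw [this]

theorem sq_inv {x : OGrp Q} (hx : x ^ 3 = 1) (v : V) :
    ((x : OGrp Q) : V ≃ₗ[ZMod 3] V) ((x : V ≃ₗ[ZMod 3] V) v) = ((x⁻¹ : OGrp Q) : V ≃ₗ[ZMod 3] V) v := by
  have := inv_sq (x := x⁻¹) (by rw [inv_pow, hx, inv_one]) v
  rwa [inv_inv] at this

theorem nn_nn {x : OGrp Q} (hx : x ^ 3 = 1) (v : V) :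
    nn x (nn x v) = (x : V ≃ₗ[ZMod 3] V) v + ((x⁻¹ : OGrp Q) : V ≃ₗ[ZMod 3] V) v + v := by
  rw [nn_apply, nn_apply, map_sub, map_sub, inv_sq hx, sq_inv hx, coe_inv_apply_self,
    coe_apply_inv_self]
  have h3 := three_smul' v
  linear_combination (norm := module) -h3

theorem nn_exp {x : OGrp Q} (hx : x ^ 3 = 1) (v : V) :
    (x : V ≃ₗ[ZMod 3] V) v = v + nn x v - nn x (nn x v) := by
  rw [nn_nn hx, nn_apply]
  have h3 := three_smul' ((x : V ≃ₗ[ZMod 3] V) v)
  linear_combination (norm := module) h3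

theorem sn_nn {x : OGrp Q} (hx : x ^ 3 = 1) : SN Q (nn x) where
  skew v w := by
    rw [nn_apply, nn_apply, pdl, pdr, polar_inv, polar_inv']
    ring
  cube v := by
    rw [nn_nn hx, nn_apply]
    rw [map_sub, map_sub]
    rw [coe_inv_apply_self, coe_apply_inv_self, inv_sq hx, sq_inv hx]
    module

theorem nn_conj (g x : OGrp Q) (v : V) :
    nn (g * x * g⁻¹) ((g : V ≃ₗ[ZMod 3] V) v) = (g : V ≃ₗ[ZMod 3] V) (nn x v) := by
  rw [nn_apply, nn_apply, map_sub]
  have e1 : (g * x * g⁻¹)⁻¹ = g * x⁻¹ * g⁻¹ := by group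
  rw [e1]
  simp only [coe_mul_apply, coe_inv_apply_self]

theorem nn_inv (x : OGrp Q) (v : V) : nn x⁻¹ v = - nn x v := by
  rw [nn_apply, nn_apply, inv_inv]; abel

theorem conj_of {x y : OGrp Q} (hx : x ^ 3 = 1) (hy : y ^ 3 = 1) (g : OGrp Q)
    (h : ∀ v, (g : V ≃ₗ[ZMod 3] V) (nn x v) = nn y ((g : V ≃ₗ[ZMod 3] V) v)) : g * x * g⁻¹ = y := by
  rw [mul_inv_eq_iff_eq_mul]
  refine OGrp_ext fun v => ?_
  rw [coe_mul_apply, coe_mul_apply, nn_exp hx, nn_exp hy, map_sub, map_add, h, h, h]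

theorem eq_one_of_nn {x : OGrp Q} (hx : x ^ 3 = 1) (h : ∀ v, nn x v = 0) : x = 1 := by
  refine OGrp_ext fun v => ?_
  rw [nn_exp hx, h, h, coe_one_apply]; simp

/-- The exponential. -/
def ex {n : V →ₗ[ZMod 3] V} (h : SN Q n) : OGrp Q :=
  mkIsom Q (LinearMap.id + n - n.comp n) (LinearMap.id - n - n.comp n)
    (fun v => by
      simp only [LinearMap.sub_apply, LinearMap.add_apply, LinearMap.id_apply, LinearMap.comp_apply,
        map_sub, map_add, h.cube, map_zero]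
      have h3 := three_smul' (n (n v))
      linear_combination (norm := module) -h3)
    (fun v => by
      simp only [LinearMap.sub_apply, LinearMap.add_apply, LinearMap.id_apply, LinearMap.comp_apply,
        map_sub, map_add, h.cube, map_zero]
      have h3 := three_smul' (n (n v))
      linear_combination (norm := module) -h3)
    (fun v => by
      simp only [LinearMap.sub_apply, LinearMap.add_apply, LinearMap.id_apply, LinearMap.comp_apply]
      rw [qsub, qadd, pal, h.self, h.self, h.qq, h.q, ]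
      ring)

theorem ex_apply {n : V →ₗ[ZMod 3] V} (h : SN Q n) (v : V) :
    (ex h : V ≃ₗ[ZMod 3] V) v = v + n v - n (n v) := rfl

theorem ex_inv_apply {n : V →ₗ[ZMod 3] V} (h : SN Q n) (v : V) :
    (((ex h)⁻¹ : OGrp Q) : V ≃ₗ[ZMod 3] V) v = v - n v - n (n v) := rfl

theorem nn_ex {n : V →ₗ[ZMod 3] V} (h : SN Q n) (v : V) : nn (ex h) v = n v := by
  rw [nn_apply, ex_inv_apply, ex_apply]
  have h3 := three_smul' (n v)
  linear_combination (norm := module) -h3

theorem ex_cube {n : V →ₗ[ZMod 3] V} (h : SN Q n) : (ex h) ^ 3 = 1 := by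
  have h1 : ex h * ex h = (ex h)⁻¹ := by
    refine OGrp_ext fun v => ?_
    rw [coe_mul_apply, ex_apply, ex_inv_apply, ex_apply]
    simp only [map_sub, map_add, h.cube, map_zero]
    have h3 := three_smul' (n v)
    linear_combination (norm := module) h3
  rw [pow_succ, pow_two, h1, inv_mul_cancel]

theorem ex_ne {n : V →ₗ[ZMod 3] V} (h : SN Q n) {v : V} (hv : n v ≠ 0) : ex h ≠ 1 := by
  intro h1
  apply hv
  rw [← nn_ex h, h1, nn_apply, inv_one, sub_self]

end Cfsg.Agent.H42.OT
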