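import Cfsg.Agent.H42.OThrA
import Cfsg.Agent.Orth.Witt

set_option autoImplicit false

/-!
Families of vectors with prescribed Gram matrix and prescribed action of a skew nilpotent map.
-/

namespace Cfsg.Agent.H42.OT

open QuadraticMap Cfsg.Agent.Orth Matrix

variable {V : Type*} [AddCommGroup V] [Module (ZMod 3) V] {Q : QuadraticForm (ZMod 3) V}

structure Fam (Q : QuadraticForm (ZMod 3) V) (n : V →ₗ[ZMod 3] V) {ι : Type} [Fintype ι] [DecidableEq ι]
    (G A : Matrix ι ι (ZMod 3)) (u : ι → V) : Prop where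
  sq : G * G = 1
  gram : ∀ i j, polar Q (u i) (u j) = G i j
  act : ∀ i, n (u i) = ∑ j, A i j • u j

variable {n : V →ₗ[ZMod 3] V} {ι : Type} [Fintype ι] [DecidableEq ι] {G A : Matrix ι ι (ZMod 3)} {u : ι → V}

/-- Orthogonality to a family. -/
def Pp (Q : QuadraticForm (ZMod 3) V) {ι : Type} (u : ι → V) (v : V) : Prop := ∀ i, polar Q (u i) v = 0

theorem Pp.add {ι : Type} {u : ι → V} {v w : V} (hv : Pp Q u v) (hw : Pp Q u w) : Pp Q u (v + w) := fun i => by
  rw [par, hv i, hw i, add_zero]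

theorem Pp.sub {ι : Type} {u : ι → V} {v w : V} (hv : Pp Q u v) (hw : Pp Q u w) : Pp Q u (v - w) := fun i => by
  rw [pdr, hv i, hw i, sub_zero]

theorem Pp.smul {ι : Type} {u : ι → V} {v : V} (hv : Pp Q u v) (c : ZMod 3) : Pp Q u (c • v) := fun i => by
  rw [psr, hv i, mul_zero]

theorem Fam.gsum (h : Fam Q n G A u) (c : ι → ZMod 3) (i : ι) :
    polar Q (u i) (∑ j, c j • u j) = (G.mulVec c) i := by
  rw [psumr, Matrix.mulVec, dotProduct]
  exact Finset.sum_congr rfl fun j _ => by rw [psr, h.gram, mul_comm]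

theorem Fam.proj (h : Fam Q n G A u) (v : V) : ∃ c : ι → ZMod 3, Pp Q u (v - ∑ j, c j • u j) := by
  refine ⟨G.mulVec fun j => polar Q (u j) v, fun i => ?_⟩
  rw [pdr, h.gsum, Matrix.mulVec_mulVec, h.sq, Matrix.one_mulVec, sub_self]

theorem Fam.inj (h : Fam Q n G A u) (c : ι → ZMod 3) (hc : ∑ j, c j • u j = 0) : c = 0 := by
  have h1 : G.mulVec c = 0 := by
    funext i
    rw [← h.gsum c i, hc, polar_zero_right]; rfl
  calc c = (G * G).mulVec c := by rw [h.sq, Matrix.one_mulVec]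
    _ = 0 := by rw [← Matrix.mulVec_mulVec, h1, Matrix.mulVec_zero]

theorem Fam.li (h : Fam Q n G A u) : LinearIndependent (ZMod 3) u := by
  rw [Fintype.linearIndependent_iff]
  intro c hc i
  rw [h.inj c hc]; rfl

theorem Fam.card_le [FiniteDimensional (ZMod 3) V] (h : Fam Q n G A u) :
    Fintype.card ι ≤ Module.finrank (ZMod 3) V := h.li.fintype_card_le_finrank

theorem Fam.nz (h : Fam Q n G A u) (hQ : (polarBilin Q).Nondegenerate) {w : V}
    (hw : w ≠ 0) (hwp : Pp Q u w) : ∃ t, Pp Q u t ∧ polar Q t w ≠ 0 := by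
  by_contra hcon
  push Not at hcon
  apply hw
  refine hQ.1 w fun t => ?_
  rw [pbil]
  obtain ⟨c, hc⟩ := h.proj t
  have h1 := hcon _ hc
  rw [pdl, psuml] at h1
  have h2 : ∑ j, polar Q (c j • u j) w = 0 :=
    Finset.sum_eq_zero fun j _ => by rw [psl, hwp j, mul_zero]
  rw [h2, sub_zero] at h1
  rw [pc, h1]

theorem Fam.stab (h : Fam Q n G A u) (hn : SN Q n) {v : V} (hv : Pp Q u v) : Pp Q u (n v) := by
  intro i
  have h1 := hn.skew (u i) v
  rw [h.act, psuml] at h1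
  have h2 : ∑ j, polar Q (A i j • u j) v = 0 :=
    Finset.sum_eq_zero fun j _ => by rw [psl, hv j, mul_zero]
  rw [h2] at h1
  exact neg_eq_zero.1 h1.symm

theorem Fam.conj [FiniteDimensional (ZMod 3) V] (hQ : (polarBilin Q).Nondegenerate)
    {n' : V →ₗ[ZMod 3] V} {u' : ι → V} (h : Fam Q n G A u) (h' : Fam Q n' G A u')
    (hz : ∀ v, Pp Q u v → n v = 0) (hz' : ∀ v, Pp Q u' v → n' v = 0) :
    ∃ g : OGrp Q, ∀ v, (g : V ≃ₗ[ZMod 3] V) (n v) = n' ((g : V ≃ₗ[ZMod 3] V) v) := by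
  have e := Fintype.equivFin ι
  have hq : ∀ i, Q (u i) = Q (u' i) := by
    intro i
    have h1 : 2 * Q (u i) = 2 * Q (u' i) := by rw [← pself, ← pself, h.gram, h'.gram]
    exact mul_left_cancel₀ z3d h1
  obtain ⟨g, hg⟩ := witt_family hQ (Fintype.card ι) (u ∘ e.symm) (u' ∘ e.symm)
    (h.li.comp _ e.symm.injective) (h'.li.comp _ e.symm.injective)
    (fun i j => by rw [Function.comp, Function.comp, Function.comp, Function.comp, h.gram, h'.gram])
    (fun i => hq _)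
  have hg' : ∀ i, (g : V ≃ₗ[ZMod 3] V) (u i) = u' i := by
    intro i
    have := hg (e i)
    simpa using this
  refine ⟨g, fun v => ?_⟩
  obtain ⟨c, hc⟩ := h.proj v
  set v' := v - ∑ j, c j • u j with hv'
  have hv : v = v' + ∑ j, c j • u j := by rw [hv']; abel
  have e1 : n v = ∑ i, c i • ∑ j, A i j • u j := by
    rw [hv, map_add, hz v' hc, zero_add, map_sum]
    exact Finset.sum_congr rfl fun i _ => by rw [map_smul, h.act]
  have e2 : n' ((g : V ≃ₗ[ZMod 3] V) v') = 0 := by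
    refine hz' _ fun i => ?_
    rw [← hg' i, OGrp_polar, hc i]
  rw [e1, map_sum, hv, map_add, map_add, e2, zero_add, map_sum, map_sum]
  refine Finset.sum_congr rfl fun i _ => ?_
  rw [map_smul, map_smul, map_smul, hg' i, h'.act, map_sum]
  congr 1
  exact Finset.sum_congr rfl fun j _ => by rw [map_smul, hg' j]

theorem Fam.sum {κ : Type} [Fintype κ] [DecidableEq κ] {G' A' : Matrix κ κ (ZMod 3)} {w : κ → V}
    (h : Fam Q n G A u) (h' : Fam Q n G' A' w) (ho : ∀ j, Pp Q u (w j)) :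
    Fam Q n (fromBlocks G 0 0 G') (fromBlocks A 0 0 A') (Sum.elim u w) where
  sq := by
    rw [fromBlocks_multiply]
    simp [h.sq, h'.sq]
  gram i j := by
    rcases i with i | i <;> rcases j with j | j
    · exact h.gram i j
    · exact ho j i
    · change polar Q (w i) (u j) = 0
      rw [pc]; exact ho i j
    · exact h'.gram i j
  act i := by
    rcases i with i | i
    · rw [Fintype.sum_sum_type]
      simp [h.act]
    · rw [Fintype.sum_sum_type]
      simp [h'.act]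

theorem Pp.elim {ι κ : Type} {u : ι → V} {w : κ → V} {v : V} (h : Pp Q u v) (h' : Pp Q w v) :
    Pp Q (Sum.elim u w) v := by
  rintro (i | i)
  · exact h i
  · exact h' i

theorem Pp.left {ι κ : Type} {u : ι → V} {w : κ → V} {v : V} (h : Pp Q (Sum.elim u w) v) : Pp Q u v :=
  fun i => h (Sum.inl i)

theorem Pp.right {ι κ : Type} {u : ι → V} {w : κ → V} {v : V} (h : Pp Q (Sum.elim u w) v) : Pp Q w v :=
  fun i => h (Sum.inr i)

/-- The empty family. -/
theorem fam_empty (Q : QuadraticForm (ZMod 3) V) (n : V →ₗ[ZMod 3] V) :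
    Fam Q n (0 : Matrix (Fin 0) (Fin 0) (ZMod 3)) 0 (fun i => i.elim0) where
  sq := by ext i; exact i.elim0
  gram i := i.elim0
  act i := i.elim0

theorem pp_empty (v : V) : Pp Q (fun i : Fin 0 => (i.elim0 : V)) v := fun i => i.elim0

/-! ### Blocks -/

/-- Gram matrix of the block of two Jordan blocks of size two. -/
def GJ : Matrix (Fin 4) (Fin 4) (ZMod 3) := !![0, 0, 0, 1; 0, 0, -1, 0; 0, -1, 0, 0; 1, 0, 0, 0]
def AJ : Matrix (Fin 4) (Fin 4) (ZMod 3) := !![0, 0, 1, 0; 0, 0, 0, 1; 0, 0, 0, 0; 0, 0, 0, 0]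

/-- Gram matrix of the block of a Jordan block of size three. -/
def GK (δ : ZMod 3) : Matrix (Fin 3) (Fin 3) (ZMod 3) := !![0, 0, δ; 0, -δ, 0; δ, 0, 0]
def AK : Matrix (Fin 3) (Fin 3) (ZMod 3) := !![0, 1, 0; 0, 0, 1; 0, 0, 0]

theorem GJ_sq : GJ * GJ = 1 := by decide
theorem GK_sq : ∀ δ : ZMod 3, δ ≠ 0 → GK δ * GK δ = 1 := by decide

theorem famJ {n : V →ₗ[ZMod 3] V} {v1 v2 : V} (hn : SN Q n) (hv1 : n (n v1) = 0) (hv2 : n (n v2) = 0)
    (h11 : Q v1 = 0) (h12 : polar Q v1 v2 = 0) (h22 : Q v2 = 0) (h : polar Q v1 (n v2) = 1) :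
    Fam Q n GJ AJ ![v1, v2, n v1, n v2] where
  sq := GJ_sq
  gram i j := by
    have e1 : polar Q v1 v1 = 0 := by rw [pself, h11, mul_zero]
    have e2 : polar Q v2 v2 = 0 := by rw [pself, h22, mul_zero]
    have e3 : polar Q v2 (n v1) = -1 := by
      rw [pc, hn.skew, h]
    have e4 : ∀ a b, n (n b) = 0 → polar Q (n a) (n b) = 0 := by
      intro a b hb
      rw [hn.skew, hb, polar_zero_right, neg_zero]
    fin_cases i <;> fin_cases j <;>
      simp [GJ, e1, e2, e3, e4, hv1, hv2, h12, h, hn.self, pc Q v2 v1, pc Q (n v1) v1, pc Q (n v1) v2,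
        pc Q (n v2) v1, pc Q (n v2) v2]
  act i := by
    fin_cases i <;> simp [AJ, Fin.sum_univ_four, hv1, hv2]

theorem famK {n : V →ₗ[ZMod 3] V} {w : V} {δ : ZMod 3} (hδ : δ ≠ 0) (hn : SN Q n)
    (h11 : Q w = 0) (h : Q (n w) = δ) :
    Fam Q n (GK δ) AK ![w, n w, n (n w)] where
  sq := GK_sq δ hδ
  gram i j := by
    have e1 : polar Q w w = 0 := by rw [pself, h11, mul_zero]
    have e2 : polar Q w (n (n w)) = δ := by rw [← hn.q, h]
    have e3 : polar Q (n w) (n w) = -δ := by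
      rw [hn.skew, e2]
    have e4 : polar Q (n w) (n (n w)) = 0 := hn.self _
    have e5 : polar Q (n (n w)) (n (n w)) = 0 := by rw [hn.skew, hn.cube, polar_zero_right, neg_zero]
    fin_cases i <;> fin_cases j <;>
      simp [GK, e1, e2, e3, e4, e5, hn.self, pc Q (n (n w)) w, pc Q (n w) w, pc Q (n (n w)) (n w)]
  act i := by
    fin_cases i <;> simp [AK, Fin.sum_univ_three, hn.cube]

theorem dsq : ∀ δ : ZMod 3, δ ≠ 0 → δ * δ = 1 := by decide

/-- A block of size three at a vector of the complement. -/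
theorem Fam.blockK' (h : Fam Q n G A u) (hn : SN Q n) {v : V} (hv : Pp Q u v) {δ : ZMod 3} (hδ : δ ≠ 0)
    (hvδ : Q (n v) = δ) :
    ∃ w, Pp Q u w ∧ n w = n v ∧ Fam Q n (GK δ) AK ![w, n w, n (n w)] := by
  set w := v + (-(Q v * δ)) • n (n v) with hw
  have hnw : n w = n v := by
    rw [hw, map_add, map_smul, hn.cube, smul_zero, add_zero]
  refine ⟨w, hv.add ((h.stab hn (h.stab hn hv)).smul _), hnw, famK hδ hn ?_ (by rw [hnw, hvδ])⟩
  rw [hw, qadd, qsmul, hn.qq, psr, ← hn.q, hvδ, mul_zero, add_zero, neg_mul, mul_assoc, dsq δ hδ, mul_one,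
    add_neg_cancel]

theorem Fam.exK (h : Fam Q n G A u) (hQ : (polarBilin Q).Nondegenerate) (hn : SN Q n) {v : V}
    (hv : Pp Q u v) (hv2 : n (n v) ≠ 0) : ∃ w, Pp Q u w ∧ Q (n w) ≠ 0 := by
  by_contra hcon
  push Not at hcon
  obtain ⟨t, ht, ht2⟩ := h.nz hQ hv2 (h.stab hn (h.stab hn hv))
  apply ht2
  have h1 := hcon _ (hv.add ht)
  rw [map_add, qadd, hcon v hv, hcon t ht, zero_add, zero_add, pc, hn.skew] at h1
  exact neg_eq_zero.1 h1

theorem Fam.blockK (h : Fam Q n G A u) (hQ : (polarBilin Q).Nondegenerate) (hn : SN Q n) {v : V}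
    (hv : Pp Q u v) (hv2 : n (n v) ≠ 0) :
    ∃ δ : ZMod 3, δ ≠ 0 ∧ ∃ w, Pp Q u w ∧ Q (n w) = δ ∧ Fam Q n (GK δ) AK ![w, n w, n (n w)] := by
  obtain ⟨v', hv', hv2'⟩ := h.exK hQ hn hv hv2
  obtain ⟨w, hw, hw2, hw3⟩ := h.blockK' hn hv' hv2' rfl
  exact ⟨_, hv2', w, hw, by rw [hw2], hw3⟩

theorem Fam.blockJ (h : Fam Q n G A u) (hQ : (polarBilin Q).Nondegenerate) (hn : SN Q n)
    (hz : ∀ v, Pp Q u v → n (n v) = 0) {v : V} (hv : Pp Q u v) (hv2 : n v ≠ 0) :
    ∃ v1 v2, Pp Q u v1 ∧ Pp Q u v2 ∧ Fam Q n GJ AJ ![v1, v2, n v1, n v2] := by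
  obtain ⟨t, ht, ht2⟩ := h.nz hQ hv2 (h.stab hn hv)
  obtain ⟨w1, hw1p, p1⟩ : ∃ w1, Pp Q u w1 ∧ polar Q w1 (n v) = 1 :=
    ⟨polar Q t (n v) • t, ht.smul _, by rw [psl, dsq _ ht2]⟩
  have z1 := hz w1 hw1p
  have z2 := hz v hv
  have hnn : ∀ a b, n (n b) = 0 → polar Q (n a) (n b) = 0 := by
    intro a b hb
    rw [hn.skew, hb, polar_zero_right, neg_zero]
  have hqn : ∀ a, n (n a) = 0 → Q (n a) = 0 := by
    intro a ha
    rw [hn.q, ha, polar_zero_right]
  have p2 : polar Q v (n w1) = -1 := by rw [pc, hn.skew, p1]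
  -- corrections
  set v1 := w1 - Q w1 • n v with hv1
  set v2 := v + Q v • n w1 - polar Q w1 v • n v with hv2'
  have n1 : n v1 = n w1 := by rw [hv1, map_sub, map_smul, z2, smul_zero, sub_zero]
  have n2 : n v2 = n v := by rw [hv2', map_sub, map_add, map_smul, map_smul, z1, z2, smul_zero, smul_zero, add_zero, sub_zero]
  have hp1 : Pp Q u v1 := hw1p.sub ((h.stab hn hv).smul _)
  have hp2 : Pp Q u v2 := (hv.add ((h.stab hn hw1p).smul _)).sub ((h.stab hn hv).smul _)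
  refine ⟨v1, v2, hp1, hp2, famJ hn (hz _ hp1) (hz _ hp2) ?_ ?_ ?_ ?_⟩
  · rw [hv1, qsub, qsmul, psr, p1, hqn v z2]; ring
  · have q1 : polar Q (n v) v = 0 := by rw [pc, hn.self]
    simp only [hv1, hv2', pdr, par, pdl, psl, psr, q1, hn.self, hnn v w1 z1, hnn v v z2, p1]
    ring
  · simp only [hv2', qsub, qadd, qsmul, psr, pal, psl, hn.self, hnn w1 v z2, hqn v z2, hqn w1 z1, p2]; ring
  · rw [n2, hv1, pdl, psl, hnn v v z2, p1]; ring

end Cfsg.Agent.H42.OT
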