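import Cfsg.Agent.H42.OThrB

set_option autoImplicit false

/-!
Normal forms of skew nilpotent maps of cube zero in dimension seven over the field with three elements.
-/

namespace Cfsg.Agent.H42.OT

open QuadraticMap Cfsg.Agent.Orth Matrix

variable {V : Type*} [AddCommGroup V] [Module (ZMod 3) V] {Q : QuadraticForm (ZMod 3) V}
variable {n : V →ₗ[ZMod 3] V} {ι : Type} [Fintype ι] [DecidableEq ι] {G A : Matrix ι ι (ZMod 3)} {u : ι → V}

theorem Fam.ppK (h : Fam Q n G A u) (hn : SN Q n) {w : V} (hw : Pp Q u w) :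
    ∀ j, Pp Q u (![w, n w, n (n w)] j) := by
  intro j
  fin_cases j
  · exact hw
  · exact h.stab hn hw
  · exact h.stab hn (h.stab hn hw)

theorem Fam.ppJ (h : Fam Q n G A u) (hn : SN Q n) {w1 w2 : V} (hw1 : Pp Q u w1) (hw2 : Pp Q u w2) :
    ∀ j, Pp Q u (![w1, w2, n w1, n w2] j) := by
  intro j
  fin_cases j
  · exact hw1
  · exact hw2
  · exact h.stab hn hw1
  · exact h.stab hn hw2

variable [FiniteDimensional (ZMod 3) V]

theorem Fam.zero_of_card (h : Fam Q n G A u) (hQ : (polarBilin Q).Nondegenerate) (hn : SN Q n)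
    (hc : Module.finrank (ZMod 3) V < Fintype.card ι + 3) : ∀ v, Pp Q u v → n v = 0 := by
  have h1 : ∀ v, Pp Q u v → n (n v) = 0 := by
    intro v hv
    by_contra hcon
    obtain ⟨δ, hδ, w, hw, hw2, hw3⟩ := h.blockK hQ hn hv hcon
    have := (h.sum hw3 (h.ppK hn hw)).card_le
    rw [Fintype.card_sum, Fintype.card_fin] at this
    omega
  intro v hv
  by_contra hcon
  obtain ⟨v1, v2, hv1, hv2, hv3⟩ := h.blockJ hQ hn h1 hv hcon
  have := (h.sum hv3 (h.ppJ hn hv1 hv2)).card_le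
  rw [Fintype.card_sum, Fintype.card_fin] at this
  omega

/-- `n` has a normal form. -/
def NF (Q : QuadraticForm (ZMod 3) V) (n : V →ₗ[ZMod 3] V) {ι : Type} [Fintype ι] [DecidableEq ι]
    (G A : Matrix ι ι (ZMod 3)) : Prop :=
  ∃ u, Fam Q n G A u ∧ ∀ v, Pp Q u v → n v = 0

/-- The trichotomy after splitting off a block of size three. -/
theorem stepK (hQ : (polarBilin Q).Nondegenerate) (hfr : Module.finrank (ZMod 3) V = 7) (hn : SN Q n)
    {δ : ZMod 3} {u : Fin 3 → V} (h : Fam Q n (GK δ) AK u) :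
    (∀ v, Pp Q u v → n v = 0) ∨ NF Q n (fromBlocks (GK δ) 0 0 GJ) (fromBlocks AK 0 0 AJ) ∨
    ∃ δ', δ' ≠ 0 ∧ (∃ w, Pp Q u w ∧ Q (n w) = δ') ∧
      NF Q n (fromBlocks (GK δ) 0 0 (GK δ')) (fromBlocks AK 0 0 AK) := by
  by_cases h1 : ∀ v, Pp Q u v → n v = 0
  · exact Or.inl h1
  right
  push Not at h1
  obtain ⟨v, hv, hnv⟩ := h1
  by_cases h2 : ∀ v, Pp Q u v → n (n v) = 0
  · left
    obtain ⟨v1, v2, hv1, hv2, hv3⟩ := h.blockJ hQ hn h2 hv hnv
    have h3 := h.sum hv3 (h.ppJ hn hv1 hv2)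
    refine ⟨_, h3, h3.zero_of_card hQ hn ?_⟩
    rw [hfr]; decide
  · right
    push Not at h2
    obtain ⟨v, hv, hnv⟩ := h2
    obtain ⟨δ', hδ', w, hw, hw2, hw3⟩ := h.blockK hQ hn hv hnv
    have h3 := h.sum hw3 (h.ppK hn hw)
    refine ⟨δ', hδ', ⟨w, hw, hw2⟩, _, h3, h3.zero_of_card hQ hn ?_⟩
    rw [hfr]; decide

theorem nf_T1 (hQ : (polarBilin Q).Nondegenerate) (hfr : Module.finrank (ZMod 3) V = 7) (hn : SN Q n)
    (hn2 : ∀ v, n (n v) = 0) {v : V} (hv : n v ≠ 0) : NF Q n GJ AJ := by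
  obtain ⟨v1, v2, -, -, h⟩ := (fam_empty Q n).blockJ hQ hn (fun v _ => hn2 v) (pp_empty v) hv
  refine ⟨_, h, ?_⟩
  intro z hz
  by_contra hcon
  obtain ⟨w1, w2, hw1, hw2, hw⟩ := h.blockJ hQ hn (fun v _ => hn2 v) hz hcon
  have := (h.sum hw (h.ppJ hn hw1 hw2)).card_le
  rw [Fintype.card_sum, Fintype.card_fin, hfr] at this
  omega

theorem d12 : ∀ δ : ZMod 3, δ ≠ 0 → δ = 1 ∨ δ = 2 := by decide

theorem classify (hQ : (polarBilin Q).Nondegenerate) (hfr : Module.finrank (ZMod 3) V = 7) (hn : SN Q n)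
    {v : V} (hv : n v ≠ 0)
    (hdisc : ¬ ∃ u, Fam Q n (fromBlocks (GK 2) 0 0 GJ) (fromBlocks AK 0 0 AJ) u) :
    NF Q n GJ AJ ∨ NF Q n (GK 1) AK ∨ NF Q n (GK 2) AK ∨
      NF Q n (fromBlocks (GK 1) 0 0 GJ) (fromBlocks AK 0 0 AJ) ∨
      NF Q n (fromBlocks (GK 1) 0 0 (GK 1)) (fromBlocks AK 0 0 AK) ∨
      NF Q n (fromBlocks (GK 1) 0 0 (GK 2)) (fromBlocks AK 0 0 AK) := by
  by_cases hn2 : ∀ v, n (n v) = 0
  · exact Or.inl (nf_T1 hQ hfr hn hn2 hv)
  right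
  push Not at hn2
  obtain ⟨z, hz⟩ := hn2
  by_cases h1 : ∃ v, Q (n v) = 1
  · obtain ⟨v, hv⟩ := h1
    obtain ⟨w, -, -, h⟩ := (fam_empty Q n).blockK' hn (pp_empty v) one_ne_zero hv
    rcases stepK hQ hfr hn h with h2 | h2 | ⟨δ', hδ', -, h2⟩
    · exact Or.inl ⟨_, h, h2⟩
    · exact Or.inr (Or.inr (Or.inl h2))
    · rcases d12 δ' hδ' with rfl | rfl
      · exact Or.inr (Or.inr (Or.inr (Or.inl h2)))
      · exact Or.inr (Or.inr (Or.inr (Or.inr h2)))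
  · obtain ⟨δ, hδ, w, -, hw2, h⟩ := (fam_empty Q n).blockK hQ hn (pp_empty z) hz
    rcases d12 δ hδ with rfl | rfl
    · exact absurd ⟨w, hw2⟩ h1
    rcases stepK hQ hfr hn h with h2 | h2 | ⟨δ', hδ', ⟨w', hw', hw2'⟩, h2⟩
    · exact Or.inr (Or.inl ⟨_, h, h2⟩)
    · exact absurd ⟨_, h2.choose_spec.1⟩ hdisc
    · rcases d12 δ' hδ' with rfl | rfl
      · exact absurd ⟨w', hw2'⟩ h1
      · exfalso
        refine h1 ⟨w + w', ?_⟩
        have e : polar Q (n w) (n w') = 0 := by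
          have := h.stab hn hw' 1
          simpa using this
        rw [map_add, qadd, hw2, hw2', e]
        decide

/-- No normal form of type `K(2) + J` if there is a basis of type `K(1) + J`. -/
theorem no_disc {n n' : V →ₗ[ZMod 3] V} {u u' : Fin 3 ⊕ Fin 4 → V}
    (h : Fam Q n (fromBlocks (GK 1) 0 0 GJ) (fromBlocks AK 0 0 AJ) u)
    (hz : ∀ v, Pp Q u v → v = 0)
    (h' : Fam Q n' (fromBlocks (GK 2) 0 0 GJ) (fromBlocks AK 0 0 AJ) u') : False := by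
  have hs : ∀ v : V, ∃ c : Fin 3 ⊕ Fin 4 → ZMod 3, v = ∑ j, c j • u j := by
    intro v
    obtain ⟨c, hc⟩ := h.proj v
    exact ⟨c, sub_eq_zero.1 (hz _ hc)⟩
  choose c hc using fun i => hs (u' i)
  have e : (fromBlocks (GK 2) 0 0 GJ : Matrix (Fin 3 ⊕ Fin 4) (Fin 3 ⊕ Fin 4) (ZMod 3))
      = (Matrix.of c) * (fromBlocks (GK 1) 0 0 GJ) * (Matrix.of c)ᵀ := by
    ext i j
    rw [← h'.gram i j, hc i, hc j, psuml, Matrix.mul_assoc, Matrix.mul_apply]
    refine Finset.sum_congr rfl fun k _ => ?_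
    rw [psl, h.gsum]
    rfl
  have e2 := congrArg Matrix.det e
  rw [Matrix.det_mul, Matrix.det_mul, Matrix.det_transpose, Matrix.det_fromBlocks_zero₂₁,
    Matrix.det_fromBlocks_zero₂₁] at e2
  have d1 : (GK 1).det = 1 := by decide
  have d2 : (GK 2).det = 2 := by decide
  have d3 : GJ.det = 1 := by decide
  rw [d1, d2, d3] at e2
  generalize (Matrix.of c).det = t at e2
  revert t
  decide

end Cfsg.Agent.H42.OT
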