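import Cfsg.Agent.H42.OThrC
import Cfsg.Agent.Orth.Tori

set_option autoImplicit false

/-!
The models of the six types of skew nilpotent maps, their invariants.
-/

namespace Cfsg.Agent.H42.OT

open QuadraticMap Cfsg.Agent.Orth Matrix

variable {V : Type*} [AddCommGroup V] [Module (ZMod 3) V] {Q : QuadraticForm (ZMod 3) V}

/-- Infinitesimal wedge. -/
def wd (Q : QuadraticForm (ZMod 3) V) (a b : V) : V →ₗ[ZMod 3] V :=
  ((polarBilin Q).flip a).smulRight b - ((polarBilin Q).flip b).smulRight a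

theorem wd_apply (a b v : V) : wd Q a b v = polar Q v a • b - polar Q v b • a := by
  simp [wd]

theorem wd_skew (a b v w : V) : polar Q (wd Q a b v) w = - polar Q v (wd Q a b w) := by
  simp only [wd_apply, pdl, pdr, psl, psr, pc Q b w, pc Q a w]
  ring

/-- Standard vectors in dimension seven. -/
structure Std (Q : QuadraticForm (ZMod 3) V) (z : V) (e f : Fin 3 → V) : Prop where
  hyp : IsHyp Q e f
  qz : Q z = 1
  ze : ∀ i, polar Q z (e i) = 0
  zf : ∀ i, polar Q z (f i) = 0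
  sep : ∀ v, polar Q v z = 0 → (∀ i, polar Q v (e i) = 0) → (∀ i, polar Q v (f i) = 0) → v = 0

variable {z : V} {e f : Fin 3 → V}

theorem Std.ez (S : Std Q z e f) (i : Fin 3) : polar Q (e i) z = 0 := by rw [pc, S.ze]
theorem Std.fz (S : Std Q z e f) (i : Fin 3) : polar Q (f i) z = 0 := by rw [pc, S.zf]
theorem Std.zz (S : Std Q z e f) : polar Q z z = 2 := by rw [pself, S.qz, mul_one]

/-- The vector of norm `δ` in a hyperbolic plane. -/
def hv (e f : Fin 3 → V) (i : Fin 3) (δ : ZMod 3) : V := e i + δ • f i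

/-- The six models. -/
def md (Q : QuadraticForm (ZMod 3) V) (z : V) (e f : Fin 3 → V) : Fin 6 → (V →ₗ[ZMod 3] V) :=
  ![wd Q (e 1) (e 0), wd Q (f 0) (hv e f 1 1), wd Q (f 0) (hv e f 1 2),
    wd Q (f 0) z + wd Q (e 2) (e 1),
    wd Q (f 0) z + wd Q (f 1) (hv e f 2 1), wd Q (f 0) z + wd Q (f 1) (hv e f 2 2)]

theorem qh (S : Std Q z e f) (i : Fin 3) (δ : ZMod 3) : Q (hv e f i δ) = δ := by
  rw [hv, qadd, qsmul, psr, S.hyp.qe, S.hyp.qf, S.hyp.ef]; simp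

theorem hf (S : Std Q z e f) {i j : Fin 3} (hij : i ≠ j) (δ : ZMod 3) : polar Q (f i) (hv e f j δ) = 0 := by
  rw [hv, par, psr, S.hyp.fe, S.hyp.ff, if_neg hij]; simp

theorem he (S : Std Q z e f) {i j : Fin 3} (hij : i ≠ j) (δ : ZMod 3) : polar Q (e i) (hv e f j δ) = 0 := by
  rw [hv, par, psr, S.hyp.ee, S.hyp.ef, if_neg hij]; simp

theorem hzz (S : Std Q z e f) (j : Fin 3) (δ : ZMod 3) : polar Q z (hv e f j δ) = 0 := by
  rw [hv, par, psr, S.ze, S.zf]; simp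

theorem hhh (S : Std Q z e f) (j : Fin 3) (δ : ZMod 3) : polar Q (hv e f j δ) (hv e f j δ) = 2 * δ := by
  rw [pself, qh S]

section T1
variable (S : Std Q z e f)
include S

theorem t1_nn (v : V) : wd Q (e 1) (e 0) (wd Q (e 1) (e 0) v) = 0 := by
  simp only [wd_apply, pdl, psl, S.hyp.ee]; simp

theorem t1_sn : SN Q (wd Q (e 1) (e 0)) where
  skew := wd_skew _ _
  cube v := by rw [t1_nn S]

theorem t1_nf : NF Q (wd Q (e 1) (e 0)) GJ AJ := by
  have e1 : wd Q (e 1) (e 0) (f 0) = - e 1 := by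
    rw [wd_apply, S.hyp.fe, S.hyp.fe]; simp
  have e2 : wd Q (e 1) (e 0) (f 1) = e 0 := by
    rw [wd_apply, S.hyp.fe, S.hyp.fe]; simp
  refine ⟨_, famJ (v1 := f 0) (v2 := f 1) (t1_sn S) (t1_nn S _) (t1_nn S _) (S.hyp.qf _) (S.hyp.ff _ _)
    (S.hyp.qf _) (by rw [e2, S.hyp.fe, if_pos rfl]), fun v hv => ?_⟩
  have h2 := hv 2
  have h3 := hv 3
  simp only [cons_val] at h2 h3
  rw [e1, polar_neg_left, neg_eq_zero, pc] at h2
  rw [e2, pc] at h3
  rw [wd_apply, h2, h3]; simp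

end T1

section T2
variable (S : Std Q z e f) {δ : ZMod 3} (hδ : δ ≠ 0)
include S

theorem t2_h : wd Q (f 0) (hv e f 1 δ) (hv e f 1 δ) = δ • f 0 := by
  rw [wd_apply, pc, hf S (by decide), hhh S, zero_smul, zero_sub, ← neg_smul]
  congr 1
  revert δ; decide

theorem t2_f : wd Q (f 0) (hv e f 1 δ) (f 0) = 0 := by
  rw [wd_apply, hf S (by decide), S.hyp.ff]; simp

theorem t2_e : wd Q (f 0) (hv e f 1 δ) (e 0) = hv e f 1 δ := by
  rw [wd_apply, he S (by decide), S.hyp.ef]; simp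

theorem t2_nn (v : V) : wd Q (f 0) (hv e f 1 δ) (wd Q (f 0) (hv e f 1 δ) v) = (δ * polar Q v (f 0)) • f 0 := by
  rw [wd_apply (f 0) (hv e f 1 δ) v, map_sub, map_smul, map_smul, t2_h S, t2_f S, smul_smul]
  rw [smul_zero, sub_zero, mul_comm]

theorem t2_sn : SN Q (wd Q (f 0) (hv e f 1 δ)) where
  skew := wd_skew _ _
  cube v := by rw [t2_nn S v, map_smul, t2_f S, smul_zero]

theorem t2_q (v : V) : Q (wd Q (f 0) (hv e f 1 δ) v) = δ * (polar Q v (f 0) * polar Q v (f 0)) := by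
  rw [(t2_sn S).q, t2_nn S, psr, mul_assoc]

include hδ in
theorem t2_nf : NF Q (wd Q (f 0) (hv e f 1 δ)) (GK δ) AK := by
  refine ⟨_, famK (w := e 0) hδ (t2_sn S) (S.hyp.qe _) (by rw [t2_e S, qh S]), fun v hv => ?_⟩
  have h2 := hv 1
  have h3 := hv 2
  simp only [cons_val] at h2 h3
  rw [t2_e S, pc] at h2
  rw [t2_nn S, psl, S.hyp.ef, pc] at h3
  have h4 : polar Q v (f 0) = 0 := by simpa [hδ] using h3
  rw [wd_apply, h2, h4]; simp

end T2

section T3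
variable (S : Std Q z e f)
include S

theorem t3_z : (wd Q (f 0) z + wd Q (e 2) (e 1)) z = f 0 := by
  rw [LinearMap.add_apply, wd_apply, wd_apply, S.zz, S.ze, S.ze, S.zf]
  simp only [zero_smul, zero_sub, sub_self, add_zero, ← neg_smul]
  rw [show (-2 : ZMod 3) = 1 by decide, one_smul]

theorem t3_f0 : (wd Q (f 0) z + wd Q (e 2) (e 1)) (f 0) = 0 := by
  rw [LinearMap.add_apply, wd_apply, wd_apply, S.hyp.ff, S.fz, S.hyp.fe, S.hyp.fe]; simp

theorem t3_e0 : (wd Q (f 0) z + wd Q (e 2) (e 1)) (e 0) = z := by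
  rw [LinearMap.add_apply, wd_apply, wd_apply, S.hyp.ef, S.ez, S.hyp.ee, S.hyp.ee]; simp

theorem t3_e1 : (wd Q (f 0) z + wd Q (e 2) (e 1)) (e 1) = 0 := by
  rw [LinearMap.add_apply, wd_apply, wd_apply, S.hyp.ef, S.ez, S.hyp.ee, S.hyp.ee]; simp

theorem t3_e2 : (wd Q (f 0) z + wd Q (e 2) (e 1)) (e 2) = 0 := by
  rw [LinearMap.add_apply, wd_apply, wd_apply, S.hyp.ef, S.ez, S.hyp.ee, S.hyp.ee]; simp

theorem t3_f1 : (wd Q (f 0) z + wd Q (e 2) (e 1)) (f 1) = - e 2 := by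
  rw [LinearMap.add_apply, wd_apply, wd_apply, S.hyp.ff, S.fz, S.hyp.fe, S.hyp.fe]; simp

theorem t3_f2 : (wd Q (f 0) z + wd Q (e 2) (e 1)) (f 2) = e 1 := by
  rw [LinearMap.add_apply, wd_apply, wd_apply, S.hyp.ff, S.fz, S.hyp.fe, S.hyp.fe]; simp

theorem t3_nn (v : V) : (wd Q (f 0) z + wd Q (e 2) (e 1)) ((wd Q (f 0) z + wd Q (e 2) (e 1)) v)
    = polar Q v (f 0) • f 0 := by
  have h1 : (wd Q (f 0) z + wd Q (e 2) (e 1)) v
    = (polar Q v (f 0) • z - polar Q v z • f 0) + (polar Q v (e 2) • e 1 - polar Q v (e 1) • e 2) := by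
    rw [LinearMap.add_apply, wd_apply, wd_apply]
  rw [h1, map_add, map_sub, map_sub, map_smul, map_smul, map_smul, map_smul, t3_z S, t3_f0 S, t3_e1 S, t3_e2 S]
  simp

theorem t3_sn : SN Q (wd Q (f 0) z + wd Q (e 2) (e 1)) where
  skew v w := by
    rw [LinearMap.add_apply, LinearMap.add_apply, pal, par, wd_skew, wd_skew]; ring
  cube v := by rw [t3_nn S v, map_smul, t3_f0 S, smul_zero]

theorem t3_q (v : V) : Q ((wd Q (f 0) z + wd Q (e 2) (e 1)) v) = polar Q v (f 0) * polar Q v (f 0) := by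
  rw [(t3_sn S).q, t3_nn S, psr]

theorem t3_fam : Fam Q (wd Q (f 0) z + wd Q (e 2) (e 1)) (fromBlocks (GK 1) 0 0 GJ) (fromBlocks AK 0 0 AJ)
    (Sum.elim ![e 0, z, f 0] ![f 1, f 2, -e 2, e 1]) := by
  have hK := famK (w := e 0) one_ne_zero (t3_sn S) (S.hyp.qe _) (by rw [t3_e0 S, S.qz])
  have hJ := famJ (v1 := f 1) (v2 := f 2) (t3_sn S) (by rw [t3_nn S, S.hyp.ff, zero_smul])
    (by rw [t3_nn S, S.hyp.ff, zero_smul]) (S.hyp.qf _) (S.hyp.ff _ _)
    (S.hyp.qf _) (by rw [t3_f2 S, S.hyp.fe, if_pos rfl])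
  rw [t3_e0 S, t3_z S] at hK
  rw [t3_f1 S, t3_f2 S] at hJ
  refine hK.sum hJ ?_
  intro j i
  fin_cases j <;> fin_cases i <;>
    simp [S.hyp.ee, S.hyp.ef, S.hyp.fe, S.hyp.ff, S.ze, S.zf, S.zz, polar_neg_right]

theorem t3_perp {v : V} (hv : Pp Q (Sum.elim ![e 0, z, f 0] ![f 1, f 2, -e 2, e 1]) v) : v = 0 := by
  have h0 := hv (Sum.inl 0)
  have h1 := hv (Sum.inl 1)
  have h2 := hv (Sum.inl 2)
  have k0 := hv (Sum.inr 0)
  have k1 := hv (Sum.inr 1)
  have k2 := hv (Sum.inr 2)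
  have k3 := hv (Sum.inr 3)
  simp only [Sum.elim_inl, Sum.elim_inr, cons_val, polar_neg_left, neg_eq_zero] at h0 h1 h2 k0 k1 k2 k3
  refine S.sep v (by rw [pc, h1]) ?_ ?_
  · intro i
    rw [pc]
    fin_cases i
    · exact h0
    · exact k3
    · exact k2
  · intro i
    rw [pc]
    fin_cases i
    · exact h2
    · exact k0
    · exact k1

theorem t3_nf : NF Q (wd Q (f 0) z + wd Q (e 2) (e 1)) (fromBlocks (GK 1) 0 0 GJ) (fromBlocks AK 0 0 AJ) :=
  ⟨_, t3_fam S, fun v hv => by rw [t3_perp S hv, map_zero]⟩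

end T3

section T4
variable (S : Std Q z e f) {δ : ZMod 3} (hδ : δ ≠ 0)
include S

theorem t4_z : (wd Q (f 0) z + wd Q (f 1) (hv e f 2 δ)) z = f 0 := by
  rw [LinearMap.add_apply, wd_apply, wd_apply, S.zz, S.zf, S.zf, hzz S]
  simp only [zero_smul, zero_sub, sub_self, add_zero, ← neg_smul]
  rw [show (-2 : ZMod 3) = 1 by decide, one_smul]

theorem t4_h : (wd Q (f 0) z + wd Q (f 1) (hv e f 2 δ)) (hv e f 2 δ) = δ • f 1 := by
  rw [LinearMap.add_apply, wd_apply, wd_apply, pc, hf S (by decide), pc, hzz S, pc, hf S (by decide), hhh S,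
    zero_smul, zero_smul, sub_self, zero_add, zero_smul, zero_sub, ← neg_smul]
  congr 1
  revert δ; decide

theorem t4_f0 : (wd Q (f 0) z + wd Q (f 1) (hv e f 2 δ)) (f 0) = 0 := by
  rw [LinearMap.add_apply, wd_apply, wd_apply, S.hyp.ff, S.fz, S.hyp.ff, hf S (by decide)]; simp

theorem t4_f1 : (wd Q (f 0) z + wd Q (f 1) (hv e f 2 δ)) (f 1) = 0 := by
  rw [LinearMap.add_apply, wd_apply, wd_apply, S.hyp.ff, S.fz, S.hyp.ff, hf S (by decide)]; simp

theorem t4_e0 : (wd Q (f 0) z + wd Q (f 1) (hv e f 2 δ)) (e 0) = z := by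
  rw [LinearMap.add_apply, wd_apply, wd_apply, S.hyp.ef, S.ez, S.hyp.ef, he S (by decide)]; simp

theorem t4_e1 : (wd Q (f 0) z + wd Q (f 1) (hv e f 2 δ)) (e 1) = hv e f 2 δ := by
  rw [LinearMap.add_apply, wd_apply, wd_apply, S.hyp.ef, S.ez, S.hyp.ef, he S (by decide)]; simp

theorem t4_nn (v : V) : (wd Q (f 0) z + wd Q (f 1) (hv e f 2 δ)) ((wd Q (f 0) z + wd Q (f 1) (hv e f 2 δ)) v)
    = polar Q v (f 0) • f 0 + (δ * polar Q v (f 1)) • f 1 := by
  have h1 : (wd Q (f 0) z + wd Q (f 1) (hv e f 2 δ)) v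
    = (polar Q v (f 0) • z - polar Q v z • f 0) + (polar Q v (f 1) • hv e f 2 δ - polar Q v (hv e f 2 δ) • f 1) := by
    rw [LinearMap.add_apply, wd_apply, wd_apply]
  rw [h1, map_add, map_sub, map_sub, map_smul, map_smul, map_smul, map_smul, t4_z S, t4_f0 S, t4_f1 S, t4_h S,
    smul_smul, mul_comm δ]
  simp

theorem t4_sn : SN Q (wd Q (f 0) z + wd Q (f 1) (hv e f 2 δ)) where
  skew v w := by
    rw [LinearMap.add_apply, LinearMap.add_apply, pal, par, wd_skew, wd_skew]; ring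
  cube v := by rw [t4_nn S v, map_add, map_smul, map_smul, t4_f0 S, t4_f1 S, smul_zero, smul_zero, add_zero]

theorem t4_q (v : V) : Q ((wd Q (f 0) z + wd Q (f 1) (hv e f 2 δ)) v)
    = polar Q v (f 0) * polar Q v (f 0) + δ * (polar Q v (f 1) * polar Q v (f 1)) := by
  rw [(t4_sn S).q, t4_nn S, par, psr, psr, mul_assoc]

include hδ in
theorem t4_nf : NF Q (wd Q (f 0) z + wd Q (f 1) (hv e f 2 δ)) (fromBlocks (GK 1) 0 0 (GK δ))
    (fromBlocks AK 0 0 AK) := by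
  have hK := famK (w := e 0) one_ne_zero (t4_sn S (δ := δ)) (S.hyp.qe _) (by rw [t4_e0 S, S.qz])
  have hK' := famK (w := e 1) hδ (t4_sn S (δ := δ)) (S.hyp.qe _) (by rw [t4_e1 S, qh S])
  rw [t4_e0 S, t4_z S] at hK
  rw [t4_e1 S, t4_h S] at hK'
  refine ⟨_, hK.sum hK' ?_, fun v hv => ?_⟩
  · intro j i
    fin_cases j <;> fin_cases i <;>
      simp [S.hyp.ee, S.hyp.ef, S.hyp.fe, S.hyp.ff, S.ze, S.zf, S.ez, S.fz, S.zz, hf S, he S, hzz S]
  · have h1 := hv (Sum.inl 1)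
    have h2 := hv (Sum.inl 2)
    have k1 := hv (Sum.inr 1)
    have k2 := hv (Sum.inr 2)
    simp only [Sum.elim_inl, Sum.elim_inr, cons_val, psl, mul_eq_zero, hδ, false_or] at h1 h2 k1 k2
    rw [LinearMap.add_apply, wd_apply, wd_apply, pc Q v z, pc Q v (f 0), pc Q v (f 1), pc Q v (OT.hv e f 2 δ),
      h1, h2, k1, k2]
    simp

end T4

end Cfsg.Agent.H42.OT
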