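import Cfsg.Agent.H42.OThrD

set_option autoImplicit false

/-!
Invariants separating the six models.
-/

namespace Cfsg.Agent.H42.OT

open QuadraticMap Cfsg.Agent.Orth Matrix

variable {V : Type*} [AddCommGroup V] [Module (ZMod 3) V] {Q : QuadraticForm (ZMod 3) V}

/-- The invariants. -/
def Inv (Q : QuadraticForm (ZMod 3) V) (n : V →ₗ[ZMod 3] V) : Fin 5 → Prop :=
  ![∃ v, n (n v) ≠ 0, ∃ v, Q (n v) = 1, ∃ v, Q (n v) = 2, ∃ v, n (n v) ≠ 0 ∧ Q (n v) = 0,
    ∃ v, n (n v) = 0 ∧ ∀ t, n v ≠ n (n t)]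

theorem inv_congr {n n' : V →ₗ[ZMod 3] V} (g : OGrp Q) {s : ZMod 3} (hs : s * s = 1)
    (h : ∀ v, (g : V ≃ₗ[ZMod 3] V) (n v) = s • n' ((g : V ≃ₗ[ZMod 3] V) v)) (k : Fin 5)
    (hk : Inv Q n k) : Inv Q n' k := by
  have h2 : ∀ v, n' (n' ((g : V ≃ₗ[ZMod 3] V) v)) = (g : V ≃ₗ[ZMod 3] V) (n (n v)) := by
    intro v
    rw [h, h, map_smul, smul_smul, hs, one_smul]
  have h1 : ∀ v, n' ((g : V ≃ₗ[ZMod 3] V) v) = s • (g : V ≃ₗ[ZMod 3] V) (n v) := by
    intro v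
    rw [h, smul_smul, hs, one_smul]
  have hq : ∀ v, Q (n' ((g : V ≃ₗ[ZMod 3] V) v)) = Q (n v) := by
    intro v
    rw [h1, qsmul, hs, one_mul, OGrp_q]
  have h0 : ∀ v, (g : V ≃ₗ[ZMod 3] V) v = 0 → v = 0 := fun v hv => by simpa using hv
  fin_cases k
  · obtain ⟨v, hv⟩ := hk
    exact ⟨_, fun h' => hv (h0 _ (by rw [← h2]; exact h'))⟩
  · obtain ⟨v, hv⟩ := hk
    exact ⟨_, (hq v).trans hv⟩
  · obtain ⟨v, hv⟩ := hk
    exact ⟨_, (hq v).trans hv⟩
  · obtain ⟨v, hv, hv'⟩ := hk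
    exact ⟨_, fun h' => hv (h0 _ (by rw [← h2]; exact h')), (hq v).trans hv'⟩
  · obtain ⟨v, hv, hv'⟩ := hk
    refine ⟨(g : V ≃ₗ[ZMod 3] V) v, by rw [h2, hv, map_zero], fun t ht => ?_⟩
    obtain ⟨t, rfl⟩ := (g : V ≃ₗ[ZMod 3] V).surjective t
    rw [h2, h1, ← map_smul] at ht
    have h3 := (g : V ≃ₗ[ZMod 3] V).injective ht
    apply hv' (s • t)
    rw [map_smul, map_smul, ← h3, smul_smul, hs, one_smul]

variable {z : V} {e f : Fin 3 → V}

def tab : Fin 6 → Fin 5 → Option Bool :=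
  ![![some false, none, none, none, none],
    ![some true, some true, some false, none, some false],
    ![some true, some false, none, none, none],
    ![some true, some true, some false, none, some true],
    ![some true, some true, some true, some false, none],
    ![some true, some true, some true, some true, none]]

theorem tab_sep : ∀ t t' : Fin 6, t ≠ t' → ∃ k, (tab t k = some true ∧ tab t' k = some false) ∨
    (tab t k = some false ∧ tab t' k = some true) := by decide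

theorem zq : ∀ a : ZMod 3, a * a ≠ 2 := by decide
theorem zq2 : ∀ a : ZMod 3, 2 * (a * a) ≠ 1 := by decide
theorem zq4 : ∀ a b : ZMod 3, a * a + 1 * (b * b) = 0 → a = 0 ∧ b = 0 := by decide

section
variable (S : Std Q z e f)
include S

theorem f_ne (i : Fin 3) : f i ≠ 0 := by
  intro h
  have := S.hyp.ef i i
  rw [h, polar_zero_right, if_pos rfl] at this
  exact zero_ne_one this

theorem t1_inv : ¬ Inv Q (wd Q (e 1) (e 0)) 0 := by
  rintro ⟨v, hv⟩
  exact hv (t1_nn S v)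

theorem t2_inv0 {δ : ZMod 3} (hδ : δ ≠ 0) : Inv Q (wd Q (f 0) (hv e f 1 δ)) 0 := by
  refine ⟨e 0, ?_⟩
  rw [t2_nn S, S.hyp.ef, if_pos rfl, mul_one]
  exact smul_ne_zero hδ (f_ne S _)

theorem t2_inv1 : Inv Q (wd Q (f 0) (hv e f 1 1)) 1 := by
  refine ⟨e 0, ?_⟩
  rw [t2_q S, S.hyp.ef, if_pos rfl]; rfl

theorem t2_inv2 : ¬ Inv Q (wd Q (f 0) (hv e f 1 1)) 2 := by
  rintro ⟨v, hv⟩
  rw [t2_q S, one_mul] at hv
  exact zq _ hv

theorem t2_inv1' : ¬ Inv Q (wd Q (f 0) (hv e f 1 2)) 1 := by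
  rintro ⟨v, hv⟩
  rw [t2_q S] at hv
  exact zq2 _ hv

theorem t2_inv4 : ¬ Inv Q (wd Q (f 0) (hv e f 1 1)) 4 := by
  rintro ⟨v, hv, hv'⟩
  rw [t2_nn S, one_mul] at hv
  have h1 : polar Q v (f 0) = 0 := by
    rcases smul_eq_zero.1 hv with h | h
    · exact h
    · exact absurd h (f_ne S _)
  apply hv' ((- polar Q v (OT.hv e f 1 1)) • e 0)
  rw [map_smul, map_smul, t2_nn S, wd_apply, h1, S.hyp.ef, if_pos rfl]
  simp

theorem t3_inv0 : Inv Q (wd Q (f 0) z + wd Q (e 2) (e 1)) 0 := by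
  refine ⟨e 0, ?_⟩
  rw [t3_nn S, S.hyp.ef, if_pos rfl, one_smul]
  exact f_ne S _

theorem t3_inv1 : Inv Q (wd Q (f 0) z + wd Q (e 2) (e 1)) 1 := by
  refine ⟨e 0, ?_⟩
  rw [t3_q S, S.hyp.ef, if_pos rfl]; rfl

theorem t3_inv2 : ¬ Inv Q (wd Q (f 0) z + wd Q (e 2) (e 1)) 2 := by
  rintro ⟨v, hv⟩
  rw [t3_q S] at hv
  exact zq _ hv

theorem t3_inv4 : Inv Q (wd Q (f 0) z + wd Q (e 2) (e 1)) 4 := by
  refine ⟨f 2, by rw [t3_nn S, S.hyp.ff, zero_smul], fun t ht => ?_⟩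
  rw [t3_nn S, t3_f2 S] at ht
  have := congrArg (fun w => polar Q w (f 1)) ht
  simp only [psl, S.hyp.ef, S.hyp.ff, mul_zero, if_pos] at this
  exact one_ne_zero this

theorem t4_inv0 {δ : ZMod 3} : Inv Q (wd Q (f 0) z + wd Q (f 1) (hv e f 2 δ)) 0 := by
  refine ⟨e 0, ?_⟩
  rw [t4_nn S, S.hyp.ef, S.hyp.ef, if_pos rfl, if_neg (by decide), one_smul, mul_zero, zero_smul, add_zero]
  exact f_ne S _

theorem t4_inv1 {δ : ZMod 3} : Inv Q (wd Q (f 0) z + wd Q (f 1) (hv e f 2 δ)) 1 := by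
  refine ⟨e 0, ?_⟩
  rw [t4_q S, S.hyp.ef, S.hyp.ef, if_pos rfl, if_neg (by decide)]; simp

theorem t4_inv2 : Inv Q (wd Q (f 0) z + wd Q (f 1) (hv e f 2 1)) 2 := by
  refine ⟨e 0 + e 1, ?_⟩
  rw [t4_q S, pal, pal]
  simp [S.hyp.ef]
  decide

theorem t4_inv2' : Inv Q (wd Q (f 0) z + wd Q (f 1) (hv e f 2 2)) 2 := by
  refine ⟨e 1, ?_⟩
  rw [t4_q S]
  simp [S.hyp.ef]

theorem t4_inv3 : ¬ Inv Q (wd Q (f 0) z + wd Q (f 1) (hv e f 2 1)) 3 := by
  rintro ⟨v, hv, hv'⟩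
  rw [t4_q S] at hv'
  obtain ⟨h1, h2⟩ := zq4 _ _ hv'
  rw [t4_nn S, h1, h2] at hv
  simp at hv

theorem t4_inv3' : Inv Q (wd Q (f 0) z + wd Q (f 1) (hv e f 2 2)) 3 := by
  refine ⟨e 0 + e 1, ?_, ?_⟩
  · rw [t4_nn S, pal, pal]
    simp only [S.hyp.ef]
    intro h
    have := congrArg (fun w => polar Q w (e 0)) h
    simp [S.hyp.fe, psl, pal] at this
  · rw [t4_q S, pal, pal]
    simp [S.hyp.ef]
    decide

theorem inv_tab (t : Fin 6) (k : Fin 5) : (tab t k = some true → Inv Q (md Q z e f t) k) ∧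
    (tab t k = some false → ¬ Inv Q (md Q z e f t) k) := by
  fin_cases t
  · fin_cases k
    · exact ⟨fun h => absurd h (by decide), fun _ => t1_inv S⟩
    · exact ⟨fun h => absurd h (by decide), fun h => absurd h (by decide)⟩
    · exact ⟨fun h => absurd h (by decide), fun h => absurd h (by decide)⟩
    · exact ⟨fun h => absurd h (by decide), fun h => absurd h (by decide)⟩
    · exact ⟨fun h => absurd h (by decide), fun h => absurd h (by decide)⟩
  · fin_cases k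
    · exact ⟨fun _ => t2_inv0 S one_ne_zero, fun h => absurd h (by decide)⟩
    · exact ⟨fun _ => t2_inv1 S, fun h => absurd h (by decide)⟩
    · exact ⟨fun h => absurd h (by decide), fun _ => t2_inv2 S⟩
    · exact ⟨fun h => absurd h (by decide), fun h => absurd h (by decide)⟩
    · exact ⟨fun h => absurd h (by decide), fun _ => t2_inv4 S⟩
  · fin_cases k
    · exact ⟨fun _ => t2_inv0 S (by decide), fun h => absurd h (by decide)⟩
    · exact ⟨fun h => absurd h (by decide), fun _ => t2_inv1' S⟩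
    · exact ⟨fun h => absurd h (by decide), fun h => absurd h (by decide)⟩
    · exact ⟨fun h => absurd h (by decide), fun h => absurd h (by decide)⟩
    · exact ⟨fun h => absurd h (by decide), fun h => absurd h (by decide)⟩
  · fin_cases k
    · exact ⟨fun _ => t3_inv0 S, fun h => absurd h (by decide)⟩
    · exact ⟨fun _ => t3_inv1 S, fun h => absurd h (by decide)⟩
    · exact ⟨fun h => absurd h (by decide), fun _ => t3_inv2 S⟩
    · exact ⟨fun h => absurd h (by decide), fun h => absurd h (by decide)⟩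
    · exact ⟨fun _ => t3_inv4 S, fun h => absurd h (by decide)⟩
  · fin_cases k
    · exact ⟨fun _ => t4_inv0 S, fun h => absurd h (by decide)⟩
    · exact ⟨fun _ => t4_inv1 S, fun h => absurd h (by decide)⟩
    · exact ⟨fun _ => t4_inv2 S, fun h => absurd h (by decide)⟩
    · exact ⟨fun h => absurd h (by decide), fun _ => t4_inv3 S⟩
    · exact ⟨fun h => absurd h (by decide), fun h => absurd h (by decide)⟩
  · fin_cases k
    · exact ⟨fun _ => t4_inv0 S, fun h => absurd h (by decide)⟩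
    · exact ⟨fun _ => t4_inv1 S, fun h => absurd h (by decide)⟩
    · exact ⟨fun _ => t4_inv2' S, fun h => absurd h (by decide)⟩
    · exact ⟨fun _ => t4_inv3' S, fun h => absurd h (by decide)⟩
    · exact ⟨fun h => absurd h (by decide), fun h => absurd h (by decide)⟩

theorem md_sep {t t' : Fin 6} (g : OGrp Q) {s : ZMod 3} (hs : s * s = 1)
    (h : ∀ v, (g : V ≃ₗ[ZMod 3] V) (md Q z e f t v) = s • md Q z e f t' ((g : V ≃ₗ[ZMod 3] V) v)) : t = t' := by
  by_contra hne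
  have h' : ∀ v, ((g⁻¹ : OGrp Q) : V ≃ₗ[ZMod 3] V) (md Q z e f t' v)
      = s • md Q z e f t (((g⁻¹ : OGrp Q) : V ≃ₗ[ZMod 3] V) v) := by
    intro v
    have h1 := h (((g⁻¹ : OGrp Q) : V ≃ₗ[ZMod 3] V) v)
    rw [coe_apply_inv_self] at h1
    have h2 := congrArg (fun w => s • ((g⁻¹ : OGrp Q) : V ≃ₗ[ZMod 3] V) w) h1
    simp only [coe_inv_apply_self] at h2
    rw [h2, map_smul, smul_smul, hs, one_smul]
  obtain ⟨k, ⟨h1, h2⟩ | ⟨h1, h2⟩⟩ := tab_sep t t' hne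
  · exact (inv_tab S t' k).2 h2 (inv_congr g hs h k ((inv_tab S t k).1 h1))
  · exact (inv_tab S t k).2 h1 (inv_congr g⁻¹ hs h' k ((inv_tab S t' k).1 h2))

end

end Cfsg.Agent.H42.OT
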