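import Cfsg.Agent.H42.OThrE

set_option autoImplicit false

/-!
Centralizers of the models: parity and spinor norm.
-/

namespace Cfsg.Agent.H42.OT

open QuadraticMap Cfsg.Agent.Orth Matrix

variable {V : Type*} [AddCommGroup V] [Module (ZMod 3) V] [FiniteDimensional (ZMod 3) V]
  {Q : QuadraticForm (ZMod 3) V}

theorem sqc1 : sqc (1 : ZMod 3) = 1 := if_pos ⟨1, by decide⟩

theorem sqc2 : sqc (2 : ZMod 3) = -1 := by
  rw [sqc, if_neg]
  rintro ⟨r, hr⟩
  exact zq r hr.symm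

/-- Both homomorphisms are surjective together on the centralizer. -/
def Full (hQ : (polarBilin Q).Nondegenerate) (hR : RGrp Q = ⊤) (x : OGrp Q) : Prop :=
  ∀ a b : ℤˣ, ∃ c : OGrp Q, c * x = x * c ∧ parityHom hQ hR c = a ∧ spinHom hQ hR c = b

theorem full_of {hQ : (polarBilin Q).Nondegenerate} {hR : RGrp Q = ⊤} {x c1 c2 : OGrp Q}
    (h1 : c1 * x = x * c1) (h2 : c2 * x = x * c2) (p1 : parityHom hQ hR c1 = -1) (p2 : parityHom hQ hR c2 = -1)
    (s1 : spinHom hQ hR c1 = 1) (s2 : spinHom hQ hR c2 = -1) : Full hQ hR x := by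
  intro a b
  rcases Int.units_eq_one_or a with rfl | rfl <;> rcases Int.units_eq_one_or b with rfl | rfl
  · exact ⟨1, by simp, map_one _, map_one _⟩
  · refine ⟨c1 * c2, ?_, ?_, ?_⟩
    · rw [mul_assoc, h2, ← mul_assoc, h1, mul_assoc]
    · rw [map_mul, p1, p2]; rfl
    · rw [map_mul, s1, s2]; rfl
  · exact ⟨c1, h1, p1, s1⟩
  · exact ⟨c2, h2, p2, s2⟩

omit [FiniteDimensional (ZMod 3) V] in
theorem comm_ex {n : V →ₗ[ZMod 3] V} (hn : SN Q n) {c : OGrp Q}
    (h : ∀ v, (c : V ≃ₗ[ZMod 3] V) (n v) = n ((c : V ≃ₗ[ZMod 3] V) v)) : c * ex hn = ex hn * c := by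
  refine OGrp_ext fun v => ?_
  rw [coe_mul_apply, coe_mul_apply, ex_apply, ex_apply, map_sub, map_add, h, h, h]

omit [FiniteDimensional (ZMod 3) V] in
theorem refl_comm {n : V →ₗ[ZMod 3] V} (hn : SN Q n) {a : V} (ha : Q a ≠ 0) (hna : n a = 0) :
    refl Q a ha * ex hn = ex hn * refl Q a ha := by
  refine comm_ex hn fun v => ?_
  rw [refl_apply, refl_apply, map_sub, map_smul, hna, smul_zero, hn.skew, hna, polar_zero_right, neg_zero,
    mul_zero, zero_smul]

theorem full_refl {hQ : (polarBilin Q).Nondegenerate} {hR : RGrp Q = ⊤} {n : V →ₗ[ZMod 3] V} (hn : SN Q n)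
    {a b : V} (ha : Q a = 1) (hb : Q b = 2) (hna : n a = 0) (hnb : n b = 0) : Full hQ hR (ex hn) := by
  have ha' : Q a ≠ 0 := by rw [ha]; decide
  have hb' : Q b ≠ 0 := by rw [hb]; decide
  refine full_of (refl_comm hn ha' hna) (refl_comm hn hb' hnb) (parityHom_refl _ _ _) (parityHom_refl _ _ _) ?_ ?_
  · rw [spinHom_refl, ha, sqc1]
  · rw [spinHom_refl, hb, sqc2]

/-- The involution attached to a block of size three. -/
theorem cent_K {hQ : (polarBilin Q).Nondegenerate} {hR : RGrp Q = ⊤} {n : V →ₗ[ZMod 3] V} (hn : SN Q n)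
    {v : V} {δ : ZMod 3} (hδ : δ ≠ 0) (hv : Q (n v) = δ) :
    ∃ c : OGrp Q, c * ex hn = ex hn * c ∧ parityHom hQ hR c = -1 ∧ spinHom hQ hR c = sqc (-δ) := by
  obtain ⟨w, -, -, h⟩ := (fam_empty Q n).blockK' hn (pp_empty v) hδ hv
  have g00 : polar Q w w = 0 := h.gram 0 0
  have g01 : polar Q w (n w) = 0 := h.gram 0 1
  have g02 : polar Q w (n (n w)) = δ := h.gram 0 2
  have g11 : polar Q (n w) (n w) = -δ := h.gram 1 1
  have g12 : polar Q (n w) (n (n w)) = 0 := h.gram 1 2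
  have g22 : polar Q (n (n w)) (n (n w)) = 0 := h.gram 2 2
  have hq : ∀ a : ZMod 3, ∀ b : ZMod 3, 2 * a = b → a = -b := by decide
  have q0 : Q w = 0 := by rw [hq _ _ ((pself Q w).symm.trans g00)]; decide
  have q1 : Q (n w) = δ := by rw [hq _ _ ((pself Q (n w)).symm.trans g11), neg_neg]
  have q2 : Q (n (n w)) = 0 := hn.qq w
  have k1 : Q (w + n (n w)) = δ := by rw [qadd, q0, q2, g02]; ring
  have k2 : Q (w - n (n w)) = -δ := by rw [qsub, q0, q2, g02]; ring
  have k1' : Q (w + n (n w)) ≠ 0 := by rw [k1]; exact hδ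
  have k2' : Q (w - n (n w)) ≠ 0 := by rw [k2]; exact neg_ne_zero.2 hδ
  have q1' : Q (n w) ≠ 0 := by rw [q1]; exact hδ
  have hd : δ⁻¹ = δ := inv_eq_of_mul_eq_one_left (dsq δ hδ)
  refine ⟨refl Q _ k1' * refl Q _ k2' * refl Q _ q1', ?_, ?_, ?_⟩
  · refine comm_ex hn fun t => ?_
    have form : ∀ t, ((refl Q _ k1' * refl Q _ k2' * refl Q _ q1' : OGrp Q) : V ≃ₗ[ZMod 3] V) t
        = t + (δ * polar Q t (n (n w))) • w + (δ * polar Q t w) • n (n w) - (δ * polar Q t (n w)) • n w := by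
      intro t
      rw [coe_mul_apply, coe_mul_apply, refl_apply Q (n w), refl_apply Q (w - n (n w)), refl_apply Q (w + n (n w))]
      rw [k1, k2, q1]
      simp only [par, pdr, pal, pdl, psl, psr, g01, g12, pc Q (n w) w, pc Q (n (n w)) w, pc Q (n (n w)) (n w), g00, g02, g22]
      rw [inv_neg, hd]
      have h3 := three_smul' ((δ * polar Q t (n (n w))) • w)
      have h4 := three_smul' ((δ * polar Q t w) • (n (n w)))
      linear_combination (norm := module) -h3 - h4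
    rw [form, form]
    simp only [map_add, map_sub, map_smul, hn.cube, hn.skew t, polar_zero_right]
    module
  · rw [map_mul, map_mul, parityHom_refl, parityHom_refl, parityHom_refl]; rfl
  · rw [map_mul, map_mul, spinHom_refl, spinHom_refl, spinHom_refl, k1, k2, q1]
    rcases d12 δ hδ with rfl | rfl
    · rw [show (-1 : ZMod 3) = 2 by decide, sqc1, sqc2]; rfl
    · rw [show (-2 : ZMod 3) = 1 by decide, sqc1, sqc2]; rfl

theorem full_K {hQ : (polarBilin Q).Nondegenerate} {hR : RGrp Q = ⊤} {n : V →ₗ[ZMod 3] V} (hn : SN Q n)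
    {v w : V} (hv : Q (n v) = 1) (hw : Q (n w) = 2) : Full hQ hR (ex hn) := by
  obtain ⟨c1, h1, p1, s1⟩ := cent_K (hQ := hQ) (hR := hR) hn (δ := 1) one_ne_zero hv
  obtain ⟨c2, h2, p2, s2⟩ := cent_K (hQ := hQ) (hR := hR) hn (δ := 2) (by decide) hw
  rw [show (-1 : ZMod 3) = 2 by decide, sqc2] at s1
  rw [show (-2 : ZMod 3) = 1 by decide, sqc1] at s2
  exact full_of h2 h1 p2 p1 s2 s1

variable {z : V} {e f : Fin 3 → V}

omit [FiniteDimensional (ZMod 3) V] in
theorem md_sn (S : Std Q z e f) (t : Fin 6) : SN Q (md Q z e f t) := by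
  fin_cases t
  · exact t1_sn S
  · exact t2_sn S
  · exact t2_sn S
  · exact t3_sn S
  · exact t4_sn S
  · exact t4_sn S

omit [FiniteDimensional (ZMod 3) V] in
theorem hvhv (S : Std Q z e f) {i j : Fin 3} (hij : i ≠ j) (δ δ' : ZMod 3) :
    polar Q (hv e f i δ) (hv e f j δ') = 0 := by
  rw [hv, pal, psl, he S hij, hf S hij]; simp

theorem md_full (S : Std Q z e f) {hQ : (polarBilin Q).Nondegenerate} {hR : RGrp Q = ⊤} {t : Fin 6}
    (ht : t ≠ 3) : Full hQ hR (ex (md_sn S t)) := by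
  fin_cases t
  · refine full_refl (a := hv e f 2 1) (b := hv e f 2 2) _ (qh S _ _) (qh S _ _) ?_ ?_
    · change wd Q (e 1) (e 0) _ = 0
      rw [wd_apply, pc, he S (by decide), pc, he S (by decide)]; simp
    · change wd Q (e 1) (e 0) _ = 0
      rw [wd_apply, pc, he S (by decide), pc, he S (by decide)]; simp
  · refine full_refl (a := hv e f 2 1) (b := hv e f 2 2) _ (qh S _ _) (qh S _ _) ?_ ?_
    · change wd Q (f 0) (hv e f 1 1) _ = 0
      rw [wd_apply, pc, hf S (by decide), hvhv S (by decide)]; simp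
    · change wd Q (f 0) (hv e f 1 1) _ = 0
      rw [wd_apply, pc, hf S (by decide), hvhv S (by decide)]; simp
  · refine full_refl (a := hv e f 2 1) (b := hv e f 2 2) _ (qh S _ _) (qh S _ _) ?_ ?_
    · change wd Q (f 0) (hv e f 1 2) _ = 0
      rw [wd_apply, pc, hf S (by decide), hvhv S (by decide)]; simp
    · change wd Q (f 0) (hv e f 1 2) _ = 0
      rw [wd_apply, pc, hf S (by decide), hvhv S (by decide)]; simp
  · exact absurd rfl ht
  · obtain ⟨v, hv⟩ := t4_inv1 S (δ := 1)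
    obtain ⟨w, hw⟩ := t4_inv2 S
    exact full_K _ hv hw
  · obtain ⟨v, hv⟩ := t4_inv1 S (δ := 2)
    obtain ⟨w, hw⟩ := t4_inv2' S
    exact full_K _ hv hw

end Cfsg.Agent.H42.OT
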