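import Cfsg.Agent.H42.OThrF

set_option autoImplicit false

/-!
The normalizer of the subgroup of type `3 + 2 + 2` lies in `±Ω`.
-/

namespace Cfsg.Agent.H42.OT

open QuadraticMap Cfsg.Agent.Orth Matrix

variable {V : Type*} [AddCommGroup V] [Module (ZMod 3) V] {Q : QuadraticForm (ZMod 3) V}
variable {z : V} {e f : Fin 3 → V}

/-- Expansion of a vector. -/
theorem Std.expand (S : Std Q z e f) (v : V) : v = polar Q v (f 0) • e 0 + polar Q v (e 0) • f 0
    + polar Q v (f 1) • e 1 + polar Q v (e 1) • f 1 + polar Q v (f 2) • e 2 + polar Q v (e 2) • f 2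
    + (2 * polar Q v z) • z := by
  rw [← sub_eq_zero]
  have h4 : ∀ a : ZMod 3, a - 2 * a * 2 = 0 := by decide
  refine S.sep _ ?_ ?_ ?_
  · simp only [pdl, pal, psl, S.ez, S.fz, S.zz]
    linear_combination h4 (polar Q v z)
  · intro i
    fin_cases i <;> simp [pdl, pal, psl, S.ze, S.hyp.ee, S.hyp.fe]
  · intro i
    fin_cases i <;> simp [pdl, pal, psl, S.zf, S.hyp.ef, S.hyp.ff]

/-- Minus the identity. -/
def neg1 (Q : QuadraticForm (ZMod 3) V) : OGrp Q :=
  ⟨LinearEquiv.neg (ZMod 3), fun v => by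
    rw [LinearEquiv.neg_apply, QuadraticMap.map_neg]⟩

theorem neg1_apply (v : V) : (neg1 Q : V ≃ₗ[ZMod 3] V) v = -v := rfl

/-- Abbreviation for the model of type 3+2+2. -/
abbrev n3 (Q : QuadraticForm (ZMod 3) V) (z : V) (e f : Fin 3 → V) : V →ₗ[ZMod 3] V :=
  wd Q (f 0) z + wd Q (e 2) (e 1)

theorem n3_apply (v : V) : n3 Q z e f v
    = (polar Q v (f 0) • z - polar Q v z • f 0) + (polar Q v (e 2) • e 1 - polar Q v (e 1) • e 2) := by
  rw [n3, LinearMap.add_apply, wd_apply, wd_apply]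

theorem cube_apply {h : OGrp Q} {D : V →ₗ[ZMod 3] V} (hD : ∀ v, (h : V ≃ₗ[ZMod 3] V) v = v + D v) (v : V) :
    ((h ^ 3 : OGrp Q) : V ≃ₗ[ZMod 3] V) v = v + D (D (D v)) := by
  rw [pow_succ, pow_two, coe_mul_apply, coe_mul_apply, hD v, hD, hD]
  simp only [map_add]
  have h1 := three_smul' (D v)
  have h2 := three_smul' (D (D v))
  linear_combination (norm := module) h1 + h2

theorem pow_nine {h : OGrp Q} {D : V →ₗ[ZMod 3] V} (hD : ∀ v, (h : V ≃ₗ[ZMod 3] V) v = v + D v)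
    (h5 : ∀ v, (D ^ 5) v = 0) : h ^ 9 = 1 := by
  refine OGrp_ext fun v => ?_
  rw [show 9 = 3 * 3 by norm_num, pow_mul,
    cube_apply (h := h ^ 3) (D := D ^ 3) (fun v => cube_apply hD v)]
  have : (D ^ 3) ((D ^ 3) ((D ^ 3) v)) = (D ^ 4) ((D ^ 5) v) := by
    rw [← Module.End.mul_apply, ← Module.End.mul_apply, ← Module.End.mul_apply, ← pow_add, ← pow_add, ← pow_add]
  rw [this, h5, map_zero, add_zero, coe_one_apply]

/-- A unipotent element. -/
theorem unip (S : Std Q z e f) {g : OGrp Q}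
    (hg : ∀ v, (g : V ≃ₗ[ZMod 3] V) (n3 Q z e f v) = n3 Q z e f ((g : V ≃ₗ[ZMod 3] V) v))
    (h0 : (g : V ≃ₗ[ZMod 3] V) (f 0) = f 0)
    (h11 : polar Q ((g : V ≃ₗ[ZMod 3] V) (f 1)) (e 1) = 1) (h12 : polar Q ((g : V ≃ₗ[ZMod 3] V) (f 1)) (e 2) = 0)
    (h21 : polar Q ((g : V ≃ₗ[ZMod 3] V) (f 2)) (e 1) = 0) (h22 : polar Q ((g : V ≃ₗ[ZMod 3] V) (f 2)) (e 2) = 1) :
    g ^ 9 = 1 := by
  set D : V →ₗ[ZMod 3] V := ((g : V ≃ₗ[ZMod 3] V) : V →ₗ[ZMod 3] V) - LinearMap.id with hDdef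
  have hDa : ∀ v, D v = (g : V ≃ₗ[ZMod 3] V) v - v := fun v => rfl
  have hD : ∀ v, (g : V ≃ₗ[ZMod 3] V) v = v + D v := fun v => by rw [hDa]; abel
  have hDn : ∀ v, D (n3 Q z e f v) = n3 Q z e f (D v) := by
    intro v
    rw [hDa, hDa, hg, map_sub]
  have hDf : ∀ v, polar Q (D v) (f 0) = 0 := by
    intro v
    have := OGrp_polar g v (f 0)
    rw [h0] at this
    rw [hDa, pdl, this, sub_self]
  have m0 : D (f 0) = 0 := by rw [hDa, h0, sub_self]
  have a11 : polar Q (D (f 1)) (e 1) = 0 := by rw [hDa, pdl, h11, S.hyp.fe, if_pos rfl, sub_self]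
  have a12 : polar Q (D (f 1)) (e 2) = 0 := by rw [hDa, pdl, h12, S.hyp.fe, if_neg (by decide), sub_self]
  have a21 : polar Q (D (f 2)) (e 1) = 0 := by rw [hDa, pdl, h21, S.hyp.fe, if_neg (by decide), sub_self]
  have a22 : polar Q (D (f 2)) (e 2) = 0 := by rw [hDa, pdl, h22, S.hyp.fe, if_pos rfl, sub_self]
  have m1 : D (e 1) = - polar Q (D (f 2)) z • f 0 := by
    have h1 : e 1 = n3 Q z e f (f 2) := (t3_f2 S).symm
    rw [h1, hDn, n3_apply, hDf, a21, a22]; simp
  have m2 : D (e 2) = polar Q (D (f 1)) z • f 0 := by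
    have h1 : e 2 = - n3 Q z e f (f 1) := by rw [t3_f1 S, neg_neg]
    rw [h1, map_neg, hDn, n3_apply, hDf, a11, a12]; simp
  have mz : D z = (- polar Q (D (e 0)) z • f 0) + (polar Q (D (e 0)) (e 2) • e 1 - polar Q (D (e 0)) (e 1) • e 2) := by
    have h1 : z = n3 Q z e f (e 0) := (t3_e0 S).symm
    rw [congrArg D h1, hDn, n3_apply, hDf]; simp
  have step : ∀ (k : ℕ) (v : V), D v ∈ LinearMap.ker (D ^ k) → v ∈ LinearMap.ker (D ^ (k + 1)) := by
    intro k v hv
    rw [LinearMap.mem_ker] at hv ⊢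
    rw [pow_succ, Module.End.mul_apply, hv]
  have mono : ∀ (k : ℕ) (v : V), v ∈ LinearMap.ker (D ^ k) → v ∈ LinearMap.ker (D ^ (k + 1)) := by
    intro k v hv
    rw [LinearMap.mem_ker] at hv ⊢
    rw [pow_succ', Module.End.mul_apply, hv, map_zero]
  have f01 : f 0 ∈ LinearMap.ker (D ^ 1) := by rw [LinearMap.mem_ker, pow_one, m0]
  have e12 : e 1 ∈ LinearMap.ker (D ^ 2) := step 1 _ (by rw [m1]; exact Submodule.smul_mem _ _ f01)
  have e22 : e 2 ∈ LinearMap.ker (D ^ 2) := step 1 _ (by rw [m2]; exact Submodule.smul_mem _ _ f01)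
  have f02 := mono 1 _ f01
  have z3 : z ∈ LinearMap.ker (D ^ 3) := step 2 _ (by
    rw [mz]
    exact Submodule.add_mem _ (Submodule.smul_mem _ _ f02)
      (Submodule.sub_mem _ (Submodule.smul_mem _ _ e12) (Submodule.smul_mem _ _ e22)))
  have f03 := mono 2 _ f02
  have e13 := mono 2 _ e12
  have e23 := mono 2 _ e22
  have f14 : f 1 ∈ LinearMap.ker (D ^ 4) := step 3 _ (by
    rw [S.expand (D (f 1)), hDf, a11, a12]
    simp only [zero_smul, zero_add, add_zero]
    exact Submodule.add_mem _ (Submodule.add_mem _ (Submodule.add_mem _ (Submodule.smul_mem _ _ f03)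
      (Submodule.smul_mem _ _ e13)) (Submodule.smul_mem _ _ e23)) (Submodule.smul_mem _ _ z3))
  have f24 : f 2 ∈ LinearMap.ker (D ^ 4) := step 3 _ (by
    rw [S.expand (D (f 2)), hDf, a21, a22]
    simp only [zero_smul, zero_add, add_zero]
    exact Submodule.add_mem _ (Submodule.add_mem _ (Submodule.add_mem _ (Submodule.smul_mem _ _ f03)
      (Submodule.smul_mem _ _ e13)) (Submodule.smul_mem _ _ e23)) (Submodule.smul_mem _ _ z3))
  have f04 := mono 3 _ f03
  have e14 := mono 3 _ e13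
  have e24 := mono 3 _ e23
  have z4 := mono 3 _ z3
  have e05 : e 0 ∈ LinearMap.ker (D ^ 5) := step 4 _ (by
    rw [S.expand (D (e 0)), hDf]
    simp only [zero_smul, zero_add, add_zero]
    exact Submodule.add_mem _ (Submodule.add_mem _ (Submodule.add_mem _ (Submodule.add_mem _
      (Submodule.add_mem _ (Submodule.smul_mem _ _ f04)
      (Submodule.smul_mem _ _ e14)) (Submodule.smul_mem _ _ f14)) (Submodule.smul_mem _ _ e24))
      (Submodule.smul_mem _ _ f24)) (Submodule.smul_mem _ _ z4))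
  have f05 := mono 4 _ f04
  have e15 := mono 4 _ e14
  have e25 := mono 4 _ e24
  have z5 := mono 4 _ z4
  have f15 := mono 4 _ f14
  have f25 := mono 4 _ f24
  refine pow_nine hD fun v => ?_
  rw [← LinearMap.mem_ker, S.expand v]
  exact Submodule.add_mem _ (Submodule.add_mem _ (Submodule.add_mem _ (Submodule.add_mem _ (Submodule.add_mem _
      (Submodule.add_mem _ (Submodule.smul_mem _ _ e05) (Submodule.smul_mem _ _ f05))
      (Submodule.smul_mem _ _ e15)) (Submodule.smul_mem _ _ f15)) (Submodule.smul_mem _ _ e25))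
      (Submodule.smul_mem _ _ f25)) (Submodule.smul_mem _ _ z5)

variable [FiniteDimensional (ZMod 3) V]

/-- The homomorphism with kernel `±Ω`. -/
noncomputable def chi (hQ : (polarBilin Q).Nondegenerate) (hR : RGrp Q = ⊤) : OGrp Q →* ℤˣ :=
  parityHom hQ hR * spinHom hQ hR

theorem chi_apply (hQ : (polarBilin Q).Nondegenerate) (hR : RGrp Q = ⊤) (g : OGrp Q) :
    chi hQ hR g = parityHom hQ hR g * spinHom hQ hR g := rfl

theorem chi_of_pow {hQ : (polarBilin Q).Nondegenerate} {hR : RGrp Q = ⊤} {g : OGrp Q} {k : ℕ} (hk : Odd k)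
    (h : g ^ k = 1) : chi hQ hR g = 1 := by
  have h1 : (chi hQ hR g) ^ k = 1 := by rw [← map_pow, h, map_one]
  rcases Int.units_eq_one_or (chi hQ hR g) with h2 | h2
  · exact h2
  · rw [h2, hk.neg_one_pow] at h1
    exact absurd h1 (by decide)

theorem neg_one_sub : (-1 - 1 : ZMod 3) = 1 := by decide
theorem neg_one_inv_sub : ((-1 : ZMod 3)⁻¹ - 1) = 1 := by rw [inv_neg, inv_one]; decide

theorem neg1_homs (S : Std Q z e f) {hQ : (polarBilin Q).Nondegenerate} {hR : RGrp Q = ⊤} :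
    parityHom hQ hR (neg1 Q) = -1 ∧ spinHom hQ hR (neg1 Q) = -1 := by
  obtain ⟨l, hl1, hl2, hl3⟩ := S.hyp.exists_torus_list (fun _ => -1) (fun _ => by decide) Finset.univ
  have hz : Q z ≠ 0 := by rw [S.qz]; exact one_ne_zero
  have h1 : neg1 Q = refl Q z hz * reflProd Q l := by
    refine OGrp_ext fun v => ?_
    rw [coe_mul_apply, hl3, refl_apply, neg1_apply, S.qz, neg_one_sub, neg_one_inv_sub]
    rw [Fin.sum_univ_three]
    simp only [pal, psl, S.ez, S.fz]
    have h2 := S.expand v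
    have h3 := three_smul' v
    have h4 := three_smul' (polar Q v z • z)
    linear_combination (norm := module) h2 - h3 + h4
  have h2 : nrm Q l = 2 := by rw [hl2]; simp; decide
  rw [h1, map_mul, map_mul, parityHom_refl, spinHom_refl, parityHom_reflProd, spinHom_reflProd, h2, S.qz, sqc1,
    sqc2, hl1.neg_one_pow]
  exact ⟨rfl, rfl⟩

theorem chi_neg1 (S : Std Q z e f) {hQ : (polarBilin Q).Nondegenerate} {hR : RGrp Q = ⊤} :
    chi hQ hR (neg1 Q) = 1 := by
  rw [chi_apply, (neg1_homs S).1, (neg1_homs S).2]; rfl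

/-- The inverting element. -/
theorem inverting (S : Std Q z e f) (hQ : (polarBilin Q).Nondegenerate) (hR : RGrp Q = ⊤) :
    ∃ g : OGrp Q, chi hQ hR g = 1 ∧
      ∀ v, (g : V ≃ₗ[ZMod 3] V) (n3 Q z e f v) = - n3 Q z e f ((g : V ≃ₗ[ZMod 3] V) v) := by
  obtain ⟨l, hl1, hl2, hl3⟩ := S.hyp.exists_torus_list (fun _ => -1) (fun _ => by decide) {0, 2}
  have h2 : nrm Q l = 1 := by rw [hl2]; simp
  refine ⟨reflProd Q l, ?_, ?_⟩
  · rw [chi_apply, parityHom_reflProd, spinHom_reflProd, h2, sqc1, hl1.neg_one_pow]; rfl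
  · have hf : ∀ v, (reflProd Q l : V ≃ₗ[ZMod 3] V) v = v + (polar Q v (f 0) • e 0 + polar Q v (e 0) • f 0)
        + (polar Q v (f 2) • e 2 + polar Q v (e 2) • f 2) := by
      intro v
      rw [hl3, Finset.sum_pair (by decide), neg_one_sub, neg_one_inv_sub, one_mul, one_mul, one_mul, one_mul]
      abel
    intro v
    rw [hf, hf, n3_apply, n3_apply]
    simp only [pal, pdl, psl, S.ez, S.fz, S.zf, S.ze, S.hyp.ee, S.hyp.ef, S.hyp.ff, S.hyp.fe]
    simp only [if_neg (show ¬ (0 : Fin 3) = 1 by decide), if_neg (show ¬ (0 : Fin 3) = 2 by decide),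
      if_neg (show ¬ (1 : Fin 3) = 0 by decide), if_neg (show ¬ (1 : Fin 3) = 2 by decide),
      if_neg (show ¬ (2 : Fin 3) = 0 by decide), if_neg (show ¬ (2 : Fin 3) = 1 by decide), if_true]
    have k1 := three_smul' (polar Q v (f 0) • z)
    have k2 := three_smul' (polar Q v z • f 0)
    have k3 := three_smul' (polar Q v (e 2) • e 1)
    have k4 := three_smul' (polar Q v (e 1) • e 2)
    linear_combination (norm := module) k1 - k2 + k3 - k4

end Cfsg.Agent.H42.OT
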