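import Cfsg.Agent.H42.OThrG

set_option autoImplicit false

/-!
The centralizer and the normalizer of the subgroup of type `3 + 2 + 2` lie in `±Ω`.
-/

namespace Cfsg.Agent.H42.OT

open QuadraticMap Cfsg.Agent.Orth Matrix

variable {V : Type*} [AddCommGroup V] [Module (ZMod 3) V] {Q : QuadraticForm (ZMod 3) V}
variable {z : V} {e f : Fin 3 → V}

theorem tv_nn (S : Std Q z e f) {i j : Fin 3} (hij : i ≠ j) (v : V) :
    wd Q (e i) (f j) (wd Q (e i) (f j) v) = 0 := by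
  simp only [wd_apply, pdl, psl, S.hyp.ee, S.hyp.ff, S.hyp.fe, S.hyp.ef, if_neg hij, if_neg hij.symm]
  simp

theorem tv_sn (S : Std Q z e f) {i j : Fin 3} (hij : i ≠ j) : SN Q (wd Q (e i) (f j)) where
  skew := wd_skew _ _
  cube v := by rw [tv_nn S hij]

variable [FiniteDimensional (ZMod 3) V]

/-- The lifts of elements of `SL(2,3)`. -/
def Rp (hQ : (polarBilin Q).Nondegenerate) (hR : RGrp Q = ⊤) (z : V) (e f : Fin 3 → V)
    (a b c d : ZMod 3) : Prop :=
  ∃ r : OGrp Q, (∀ v, (r : V ≃ₗ[ZMod 3] V) (n3 Q z e f v) = n3 Q z e f ((r : V ≃ₗ[ZMod 3] V) v)) ∧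
    (r : V ≃ₗ[ZMod 3] V) (f 0) = f 0 ∧ chi hQ hR r = 1 ∧
    (r : V ≃ₗ[ZMod 3] V) (f 1) = a • f 1 + c • f 2 ∧ (r : V ≃ₗ[ZMod 3] V) (f 2) = b • f 1 + d • f 2

variable {hQ : (polarBilin Q).Nondegenerate} {hR : RGrp Q = ⊤}

theorem Rp.one : Rp hQ hR z e f 1 0 0 1 :=
  ⟨1, fun v => rfl, rfl, map_one _, by rw [coe_one_apply]; simp, by rw [coe_one_apply]; simp⟩

theorem Rp.up (S : Std Q z e f) {a b c d : ZMod 3} (h : Rp hQ hR z e f a b c d) :
    Rp hQ hR z e f (a + c) (b + d) c d := by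
  obtain ⟨r, h1, h2, h3, h4, h5⟩ := h
  have hsn := tv_sn S (show (2 : Fin 3) ≠ 1 by decide)
  have hap : ∀ v, (ex hsn : V ≃ₗ[ZMod 3] V) v = v + wd Q (e 2) (f 1) v := by
    intro v
    rw [ex_apply, tv_nn S (by decide), sub_zero]
  refine ⟨ex hsn * r, ?_, ?_, ?_, ?_, ?_⟩
  · intro v
    rw [coe_mul_apply, coe_mul_apply, h1]
    generalize (r : V ≃ₗ[ZMod 3] V) v = w
    rw [hap, hap, map_add]
    congr 1
    rw [wd_apply, (t3_sn S).skew, (t3_sn S).skew, wd_apply, map_sub, map_smul, map_smul, t3_e2 S, t3_f1 S,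
      polar_neg_right, polar_zero_right]
    simp
  · rw [coe_mul_apply, h2, hap, wd_apply, S.hyp.fe, S.hyp.ff]; simp
  · rw [map_mul, h3, mul_one]
    exact chi_of_pow (by decide) (ex_cube hsn)
  · rw [coe_mul_apply, h4, hap, wd_apply]
    simp only [pal, psl, S.hyp.fe, S.hyp.ff]
    simp
    module
  · rw [coe_mul_apply, h5, hap, wd_apply]
    simp only [pal, psl, S.hyp.fe, S.hyp.ff]
    simp
    module

theorem Rp.down (S : Std Q z e f) {a b c d : ZMod 3} (h : Rp hQ hR z e f a b c d) :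
    Rp hQ hR z e f a b (c + a) (d + b) := by
  obtain ⟨r, h1, h2, h3, h4, h5⟩ := h
  have hsn := tv_sn S (show (1 : Fin 3) ≠ 2 by decide)
  have hap : ∀ v, (ex hsn : V ≃ₗ[ZMod 3] V) v = v + wd Q (e 1) (f 2) v := by
    intro v
    rw [ex_apply, tv_nn S (by decide), sub_zero]
  refine ⟨ex hsn * r, ?_, ?_, ?_, ?_, ?_⟩
  · intro v
    rw [coe_mul_apply, coe_mul_apply, h1]
    generalize (r : V ≃ₗ[ZMod 3] V) v = w
    rw [hap, hap, map_add]
    congr 1
    rw [wd_apply, (t3_sn S).skew, (t3_sn S).skew, wd_apply, map_sub, map_smul, map_smul, t3_e1 S, t3_f2 S,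
      polar_zero_right]
    simp
  · rw [coe_mul_apply, h2, hap, wd_apply, S.hyp.fe, S.hyp.ff]; simp
  · rw [map_mul, h3, mul_one]
    exact chi_of_pow (by decide) (ex_cube hsn)
  · rw [coe_mul_apply, h4, hap, wd_apply]
    simp only [pal, psl, S.hyp.fe, S.hyp.ff]
    simp
    module
  · rw [coe_mul_apply, h5, hap, wd_apply]
    simp only [pal, psl, S.hyp.fe, S.hyp.ff]
    simp
    module

theorem Rp.ups (S : Std Q z e f) {a b c d : ZMod 3} (h : Rp hQ hR z e f a b c d) (s : ZMod 3) :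
    Rp hQ hR z e f (a + s * c) (b + s * d) c d := by
  have hs : s = 0 ∨ s = 1 ∨ s = 2 := by revert s; decide
  rcases hs with rfl | rfl | rfl
  · simpa using h
  · simpa using h.up S
  · have := (h.up S).up S
    rwa [show a + 2 * c = a + c + c by ring, show b + 2 * d = b + d + d by ring]

theorem Rp.downs (S : Std Q z e f) {a b c d : ZMod 3} (h : Rp hQ hR z e f a b c d) (s : ZMod 3) :
    Rp hQ hR z e f a b (c + s * a) (d + s * b) := by
  have hs : s = 0 ∨ s = 1 ∨ s = 2 := by revert s; decide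
  rcases hs with rfl | rfl | rfl
  · simpa using h
  · simpa using h.down S
  · have := (h.down S).down S
    rwa [show c + 2 * a = c + a + a by ring, show d + 2 * b = d + b + b by ring]

theorem sl_aux1 : ∀ a b c d : ZMod 3, a * d - b * c = 1 → c ≠ 0 →
    1 + (a - 1) * c * c = a ∧ (0 + (d - 1) * c * 1) + (a - 1) * c * d = b ∧ c = 0 + c * 1 ∧
      d = 1 + c * (0 + (d - 1) * c * 1) := by
  decide

theorem sl_aux2 : ∀ a b d : ZMod 3, a * d - b * 0 = 1 → a * (-b - a * b * 0 + d) - b * a = 1 → a ≠ 0 := by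
  decide

theorem Rp.of_ne (S : Std Q z e f) {a b c d : ZMod 3} (h : a * d - b * c = 1) (hc : c ≠ 0) :
    Rp hQ hR z e f a b c d := by
  obtain ⟨h1, h2, h3, h4⟩ := sl_aux1 a b c d h hc
  have k1 := ((Rp.one (hQ := hQ) (hR := hR) (z := z) (e := e) (f := f)).ups S ((d - 1) * c)).downs S c
  rw [mul_zero, add_zero, ← h3, ← h4] at k1
  have k2 := k1.ups S ((a - 1) * c)
  rwa [h1, h2] at k2

theorem Rp.all (S : Std Q z e f) {a b c d : ZMod 3} (h : a * d - b * c = 1) : Rp hQ hR z e f a b c d := by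
  by_cases hc : c = 0
  · subst hc
    have ha : a ≠ 0 := by rintro rfl; simp at h
    have k1 : a * (d + b) - b * a = 1 := by rw [← h]; ring
    have k2 := (Rp.of_ne (hQ := hQ) (hR := hR) S k1 ha).downs S 2
    have e1 : a + 2 * a = 0 := by
      have : (3 : ZMod 3) = 0 := by decide
      linear_combination a * this
    have e2 : d + b + 2 * b = d := by
      have : (3 : ZMod 3) = 0 := by decide
      linear_combination b * this
    rwa [e1, e2] at k2
  · exact Rp.of_ne S h hc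

/-- An element of the centralizer fixing `f 0`. -/
theorem cent3' (S : Std Q z e f) {g : OGrp Q}
    (hg : ∀ v, (g : V ≃ₗ[ZMod 3] V) (n3 Q z e f v) = n3 Q z e f ((g : V ≃ₗ[ZMod 3] V) v))
    (h0 : (g : V ≃ₗ[ZMod 3] V) (f 0) = f 0) : chi hQ hR g = 1 := by
  have hf0 : ∀ v, polar Q ((g : V ≃ₗ[ZMod 3] V) v) (f 0) = polar Q v (f 0) := by
    intro v
    have := OGrp_polar g v (f 0)
    rwa [h0] at this
  set a := polar Q ((g : V ≃ₗ[ZMod 3] V) (f 1)) (e 1) with ha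
  set c := polar Q ((g : V ≃ₗ[ZMod 3] V) (f 1)) (e 2) with hc
  set b := polar Q ((g : V ≃ₗ[ZMod 3] V) (f 2)) (e 1) with hb
  set d := polar Q ((g : V ≃ₗ[ZMod 3] V) (f 2)) (e 2) with hd
  have e10 : polar Q ((g : V ≃ₗ[ZMod 3] V) (f 1)) (f 0) = 0 := by rw [hf0, S.hyp.ff]
  have e20 : polar Q ((g : V ≃ₗ[ZMod 3] V) (f 2)) (f 0) = 0 := by rw [hf0, S.hyp.ff]
  have hdet : a * d - b * c = 1 := by
    have h1 : polar Q ((g : V ≃ₗ[ZMod 3] V) (f 1)) (n3 Q z e f ((g : V ≃ₗ[ZMod 3] V) (f 2))) = 1 := by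
      rw [← hg, OGrp_polar, t3_f2 S, S.hyp.fe, if_pos rfl]
    rw [n3_apply, e20, par, pdr, pdr, psr, psr, psr, psr, e10, ← ha, ← hb, ← hc, ← hd] at h1
    linear_combination h1
  obtain ⟨r, r1, r2, r3, r4, r5⟩ := Rp.all (hQ := hQ) (hR := hR) S hdet
  -- action of `r` on `e 1`, `e 2`
  have re1 : (r : V ≃ₗ[ZMod 3] V) (e 1) = d • e 1 - b • e 2 := by
    have := r1 (f 2)
    rw [t3_f2 S] at this
    rw [this, r5, map_add, map_smul, map_smul, t3_f1 S, t3_f2 S]; module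
  have re2 : (r : V ≃ₗ[ZMod 3] V) (e 2) = a • e 2 - c • e 1 := by
    have := r1 (f 1)
    rw [t3_f1 S, map_neg] at this
    rw [neg_eq_iff_eq_neg.1 this, r4, map_add, map_smul, map_smul, t3_f1 S, t3_f2 S]; module
  -- inverse
  have q1 : ∀ v, polar Q (((r⁻¹ : OGrp Q) : V ≃ₗ[ZMod 3] V) v) (e 1) = d * polar Q v (e 1) - b * polar Q v (e 2) := by
    intro v
    rw [polar_inv, re1, pdr, psr, psr]
  have q2 : ∀ v, polar Q (((r⁻¹ : OGrp Q) : V ≃ₗ[ZMod 3] V) v) (e 2) = a * polar Q v (e 2) - c * polar Q v (e 1) := by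
    intro v
    rw [polar_inv, re2, pdr, psr, psr]
  have hr' : ∀ v, ((r⁻¹ : OGrp Q) : V ≃ₗ[ZMod 3] V) (n3 Q z e f v)
      = n3 Q z e f (((r⁻¹ : OGrp Q) : V ≃ₗ[ZMod 3] V) v) := by
    intro v
    have h1 := r1 (((r⁻¹ : OGrp Q) : V ≃ₗ[ZMod 3] V) v)
    rw [coe_apply_inv_self] at h1
    rw [← h1, coe_inv_apply_self]
  have key : (r⁻¹ * g) ^ 9 = 1 := by
    refine unip S ?_ ?_ ?_ ?_ ?_ ?_
    · intro v
      rw [coe_mul_apply, coe_mul_apply, hg, hr']
    · rw [coe_mul_apply, h0]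
      have := coe_inv_apply_self r (f 0)
      rwa [r2] at this
    · rw [coe_mul_apply, q1, ← ha, ← hc]; linear_combination hdet
    · rw [coe_mul_apply, q2, ← ha, ← hc]; ring
    · rw [coe_mul_apply, q1, ← hb, ← hd]; ring
    · rw [coe_mul_apply, q2, ← hb, ← hd]; linear_combination hdet
  have h1 : chi hQ hR (r⁻¹ * g) = 1 := chi_of_pow (by decide) key
  rwa [map_mul, map_inv, r3, inv_one, one_mul] at h1

theorem cent3 (S : Std Q z e f) {g : OGrp Q}
    (hg : ∀ v, (g : V ≃ₗ[ZMod 3] V) (n3 Q z e f v) = n3 Q z e f ((g : V ≃ₗ[ZMod 3] V) v)) :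
    chi hQ hR g = 1 := by
  have h1 : (g : V ≃ₗ[ZMod 3] V) (f 0) = polar Q ((g : V ≃ₗ[ZMod 3] V) (e 0)) (f 0) • f 0 := by
    have h2 : f 0 = n3 Q z e f (n3 Q z e f (e 0)) := by
      rw [t3_nn S, S.hyp.ef, if_pos rfl, one_smul]
    rw [congrArg (g : V ≃ₗ[ZMod 3] V) h2, hg, hg, t3_nn S]
  have h3 : polar Q ((g : V ≃ₗ[ZMod 3] V) (e 0)) (f 0) ≠ 0 := by
    intro h
    rw [h, zero_smul] at h1
    have h4 : f 0 = 0 := by simpa using h1
    exact f_ne S 0 h4
  rcases d12 _ h3 with h4 | h4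
  · rw [h4, one_smul] at h1
    exact cent3' S hg h1
  · rw [h4] at h1
    have h5 : chi hQ hR (neg1 Q * g) = 1 := by
      refine cent3' S (fun v => ?_) ?_
      · rw [coe_mul_apply, coe_mul_apply, neg1_apply, neg1_apply, map_neg, hg]
      · rw [coe_mul_apply, neg1_apply, h1]
        have := three_smul' (f 0)
        linear_combination (norm := module) -this
    rwa [map_mul, chi_neg1 S, one_mul] at h5

theorem norm3 (S : Std Q z e f) {g : OGrp Q} {s : ZMod 3} (hs : s = 1 ∨ s = -1)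
    (hg : ∀ v, (g : V ≃ₗ[ZMod 3] V) (n3 Q z e f v) = s • n3 Q z e f ((g : V ≃ₗ[ZMod 3] V) v)) :
    chi hQ hR g = 1 := by
  rcases hs with rfl | rfl
  · exact cent3 S fun v => by rw [hg, one_smul]
  · obtain ⟨k, hk, hk2⟩ := inverting S hQ hR
    have h1 : chi hQ hR (k * g) = 1 := by
      refine cent3 S fun v => ?_
      rw [coe_mul_apply, coe_mul_apply, hg, map_smul, hk2, neg_one_smul, neg_neg]
    rwa [map_mul, hk, one_mul] at h1

end Cfsg.Agent.H42.OT
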