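import Cfsg.Agent.H42.OThrC

set_option autoImplicit false

/-!
Normal forms of skew nilpotent maps of cube zero in dimension eight over the field with three elements.
-/

namespace Cfsg.Agent.H42.Oct

open QuadraticMap Cfsg.Agent.Orth Matrix Cfsg.Agent.H42.OT

variable {V : Type*} [AddCommGroup V] [Module (ZMod 3) V] {Q : QuadraticForm (ZMod 3) V}
variable {n : V →ₗ[ZMod 3] V}
variable [FiniteDimensional (ZMod 3) V]

theorem stepK8 (hQ : (polarBilin Q).Nondegenerate) (hfr : Module.finrank (ZMod 3) V = 8) (hn : SN Q n)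
    {δ : ZMod 3} {u : Fin 3 → V} (h : Fam Q n (GK δ) AK u) :
    (∀ v, Pp Q u v → n v = 0) ∨ NF Q n (fromBlocks (GK δ) 0 0 GJ) (fromBlocks AK 0 0 AJ) ∨
    ∃ δ', δ' ≠ 0 ∧ (∃ w, Pp Q u w ∧ Q (n w) = δ') ∧
      NF Q n (fromBlocks (GK δ) 0 0 (GK δ')) (fromBlocks AK 0 0 AK) := by
  by_cases h1 : ∀ v, Pp Q u v → n v = 0
  · exact Or.inl h1
  right
  push Not at h1
  obtain ⟨v, hv, hnv⟩ := h1
  by_cases h2 : ∀ v, Pp Q u v → n (n v) = 0
  · left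
    obtain ⟨v1, v2, hv1, hv2, hv3⟩ := h.blockJ hQ hn h2 hv hnv
    have h3 := h.sum hv3 (h.ppJ hn hv1 hv2)
    refine ⟨_, h3, h3.zero_of_card hQ hn ?_⟩
    rw [hfr]; decide
  · right
    push Not at h2
    obtain ⟨v, hv, hnv⟩ := h2
    obtain ⟨δ', hδ', w, hw, hw2, hw3⟩ := h.blockK hQ hn hv hnv
    have h3 := h.sum hw3 (h.ppK hn hw)
    refine ⟨δ', hδ', ⟨w, hw, hw2⟩, _, h3, h3.zero_of_card hQ hn ?_⟩
    rw [hfr]; decide

theorem nf_J8 (hQ : (polarBilin Q).Nondegenerate) (hfr : Module.finrank (ZMod 3) V = 8) (hn : SN Q n)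
    (hn2 : ∀ v, n (n v) = 0) {v : V} (hv : n v ≠ 0) : NF Q n GJ AJ ∨
    NF Q n (fromBlocks GJ 0 0 GJ) (fromBlocks AJ 0 0 AJ) := by
  obtain ⟨v1, v2, -, -, h⟩ := (fam_empty Q n).blockJ hQ hn (fun v _ => hn2 v) (pp_empty v) hv
  by_cases h1 : ∀ v, Pp Q ![v1, v2, n v1, n v2] v → n v = 0
  · exact Or.inl ⟨_, h, h1⟩
  right
  push Not at h1
  obtain ⟨z, hz, hcon⟩ := h1
  obtain ⟨w1, w2, hw1, hw2, hw⟩ := h.blockJ hQ hn (fun v _ => hn2 v) hz hcon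
  have h3 := h.sum hw (h.ppJ hn hw1 hw2)
  refine ⟨_, h3, h3.zero_of_card hQ hn ?_⟩
  rw [hfr]; decide

theorem classify8 (hQ : (polarBilin Q).Nondegenerate) (hfr : Module.finrank (ZMod 3) V = 8) (hn : SN Q n)
    {v : V} (hv : n v ≠ 0) :
    NF Q n GJ AJ ∨ NF Q n (GK 1) AK ∨ NF Q n (GK 2) AK ∨
      NF Q n (fromBlocks GJ 0 0 GJ) (fromBlocks AJ 0 0 AJ) ∨
      NF Q n (fromBlocks (GK 1) 0 0 GJ) (fromBlocks AK 0 0 AJ) ∨
      NF Q n (fromBlocks (GK 2) 0 0 GJ) (fromBlocks AK 0 0 AJ) ∨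
      NF Q n (fromBlocks (GK 1) 0 0 (GK 1)) (fromBlocks AK 0 0 AK) ∨
      NF Q n (fromBlocks (GK 1) 0 0 (GK 2)) (fromBlocks AK 0 0 AK) := by
  by_cases hn2 : ∀ v, n (n v) = 0
  · rcases nf_J8 hQ hfr hn hn2 hv with h | h
    · exact Or.inl h
    · exact Or.inr (Or.inr (Or.inr (Or.inl h)))
  right
  push Not at hn2
  obtain ⟨z, hz⟩ := hn2
  by_cases h1 : ∃ v, Q (n v) = 1
  · obtain ⟨v, hv⟩ := h1
    obtain ⟨w, -, -, h⟩ := (fam_empty Q n).blockK' hn (pp_empty v) one_ne_zero hv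
    rcases stepK8 hQ hfr hn h with h2 | h2 | ⟨δ', hδ', -, h2⟩
    · exact Or.inl ⟨_, h, h2⟩
    · exact Or.inr (Or.inr (Or.inr (Or.inl h2)))
    · rcases d12 δ' hδ' with rfl | rfl
      · exact Or.inr (Or.inr (Or.inr (Or.inr (Or.inr (Or.inl h2)))))
      · exact Or.inr (Or.inr (Or.inr (Or.inr (Or.inr (Or.inr h2)))))
  · obtain ⟨δ, hδ, w, -, hw2, h⟩ := (fam_empty Q n).blockK hQ hn (pp_empty z) hz
    rcases d12 δ hδ with rfl | rfl
    · exact absurd ⟨w, hw2⟩ h1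
    rcases stepK8 hQ hfr hn h with h2 | h2 | ⟨δ', hδ', ⟨w', hw', hw2'⟩, h2⟩
    · exact Or.inr (Or.inl ⟨_, h, h2⟩)
    · exact Or.inr (Or.inr (Or.inr (Or.inr (Or.inl h2))))
    · rcases d12 δ' hδ' with rfl | rfl
      · exact absurd ⟨w', hw2'⟩ h1
      · exfalso
        refine h1 ⟨w + w', ?_⟩
        have e : polar Q (n w) (n w') = 0 := by
          have := h.stab hn hw' 1
          simpa using this
        rw [map_add, qadd, hw2, hw2', e]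
        decide

end Cfsg.Agent.H42.Oct
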