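import Cfsg.Agent.H42.OctA
import Cfsg.Agent.H42.OThrD

set_option autoImplicit false

/-!
The models of the eight types of skew nilpotent maps of cube zero in dimension eight.
-/

namespace Cfsg.Agent.H42.Oct

open QuadraticMap Cfsg.Agent.Orth Matrix Cfsg.Agent.H42.OT

variable {V : Type*} [AddCommGroup V] [Module (ZMod 3) V] {Q : QuadraticForm (ZMod 3) V}

/-- Standard vectors in dimension eight. -/
structure Std8 (Q : QuadraticForm (ZMod 3) V) (e f : Fin 4 → V) : Prop where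
  hyp : IsHyp Q e f
  sep : ∀ v, (∀ i, polar Q v (e i) = 0) → (∀ i, polar Q v (f i) = 0) → v = 0

variable {e f : Fin 4 → V}

/-- The vector of norm `δ` in a hyperbolic plane. -/
def hw (e f : Fin 4 → V) (i : Fin 4) (δ : ZMod 3) : V := e i + δ • f i

abbrev Ja (Q : QuadraticForm (ZMod 3) V) (e : Fin 4 → V) : V →ₗ[ZMod 3] V := wd Q (e 1) (e 0)
abbrev Jb (Q : QuadraticForm (ZMod 3) V) (e : Fin 4 → V) : V →ₗ[ZMod 3] V := wd Q (e 3) (e 2)
abbrev Ka (Q : QuadraticForm (ZMod 3) V) (e f : Fin 4 → V) (δ : ZMod 3) : V →ₗ[ZMod 3] V := wd Q (e 0) (hw e f 1 δ)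
abbrev Kb (Q : QuadraticForm (ZMod 3) V) (e f : Fin 4 → V) (δ : ZMod 3) : V →ₗ[ZMod 3] V := wd Q (e 2) (hw e f 3 δ)

/-- The eight models. -/
def md (Q : QuadraticForm (ZMod 3) V) (e f : Fin 4 → V) : Fin 8 → (V →ₗ[ZMod 3] V) :=
  ![Ja Q e, Ka Q e f 1, Ka Q e f 2, Ja Q e + Jb Q e, Ka Q e f 1 + Jb Q e, Ka Q e f 2 + Jb Q e,
    Ka Q e f 1 + Kb Q e f 1, Ka Q e f 1 + Kb Q e f 2]

variable (S : Std8 Q e f)
include S

theorem qh (i : Fin 4) (δ : ZMod 3) : Q (hw e f i δ) = δ := by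
  rw [hw, qadd, qsmul, psr, S.hyp.qe, S.hyp.qf, S.hyp.ef]; simp

theorem hh (i : Fin 4) (δ : ZMod 3) : polar Q (hw e f i δ) (hw e f i δ) = 2 * δ := by
  rw [pself, qh S]

theorem hf {i j : Fin 4} (hij : i ≠ j) (δ : ZMod 3) : polar Q (f i) (hw e f j δ) = 0 := by
  rw [hw, par, psr, S.hyp.fe, S.hyp.ff, if_neg hij]; simp

theorem he {i j : Fin 4} (hij : i ≠ j) (δ : ZMod 3) : polar Q (e i) (hw e f j δ) = 0 := by
  rw [hw, par, psr, S.hyp.ee, S.hyp.ef, if_neg hij]; simp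

theorem hf' {i j : Fin 4} (hij : i ≠ j) (δ : ZMod 3) : polar Q (hw e f j δ) (f i) = 0 := by
  rw [pc, hf S hij]

theorem he' {i j : Fin 4} (hij : i ≠ j) (δ : ZMod 3) : polar Q (hw e f j δ) (e i) = 0 := by
  rw [pc, he S hij]

theorem hhj {i j : Fin 4} (hij : i ≠ j) (δ δ' : ZMod 3) : polar Q (hw e f i δ) (hw e f j δ') = 0 := by
  rw [hw, pal, psl, he S hij, hf S hij]; simp

/-- Expansion of a vector. -/
theorem expand (v : V) : v = ∑ i, polar Q v (f i) • e i + ∑ i, polar Q v (e i) • f i := by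
  rw [← sub_eq_zero]
  refine S.sep _ ?_ ?_
  · intro i
    rw [pdl, pal, psuml, psuml]
    simp [psl, S.hyp.ee, S.hyp.fe]
  · intro i
    rw [pdl, pal, psuml, psuml]
    simp [psl, S.hyp.ff, S.hyp.ef]

theorem Ja_sq (v : V) : Ja Q e (Ja Q e v) = 0 := by
  simp only [wd_apply, pdl, psl, S.hyp.ee]; simp

theorem Jb_sq (v : V) : Jb Q e (Jb Q e v) = 0 := by
  simp only [wd_apply, pdl, psl, S.hyp.ee]; simp

theorem Ka_h (δ : ZMod 3) : Ka Q e f δ (hw e f 1 δ) = δ • e 0 := by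
  rw [wd_apply, he' S (by decide), hh S, zero_smul, zero_sub, ← neg_smul]
  congr 1
  revert δ; decide

theorem Kb_h (δ : ZMod 3) : Kb Q e f δ (hw e f 3 δ) = δ • e 2 := by
  rw [wd_apply, he' S (by decide), hh S, zero_smul, zero_sub, ← neg_smul]
  congr 1
  revert δ; decide

theorem Ka_e (δ : ZMod 3) : Ka Q e f δ (e 0) = 0 := by
  rw [wd_apply, he S (by decide), S.hyp.ee]; simp

theorem Kb_e (δ : ZMod 3) : Kb Q e f δ (e 2) = 0 := by
  rw [wd_apply, he S (by decide), S.hyp.ee]; simp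

theorem Ka_sq (δ : ZMod 3) (v : V) : Ka Q e f δ (Ka Q e f δ v) = (δ * polar Q v (e 0)) • e 0 := by
  rw [wd_apply (e 0) _ v, map_sub, map_smul, map_smul, Ka_h S, Ka_e S, smul_smul, smul_zero, sub_zero, mul_comm]

theorem Kb_sq (δ : ZMod 3) (v : V) : Kb Q e f δ (Kb Q e f δ v) = (δ * polar Q v (e 2)) • e 2 := by
  rw [wd_apply (e 2) _ v, map_sub, map_smul, map_smul, Kb_h S, Kb_e S, smul_smul, smul_zero, sub_zero, mul_comm]

theorem JJ (v : V) : Ja Q e (Jb Q e v) = 0 ∧ Jb Q e (Ja Q e v) = 0 := by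
  constructor
  · simp only [wd_apply, pdl, psl, S.hyp.ee]; simp
  · simp only [wd_apply, pdl, psl, S.hyp.ee]; simp

theorem KJ (δ : ZMod 3) (v : V) : Ka Q e f δ (Jb Q e v) = 0 ∧ Jb Q e (Ka Q e f δ v) = 0 := by
  constructor
  · simp only [wd_apply, pdl, psl, S.hyp.ee, he S (show (2 : Fin 4) ≠ 1 by decide), he S (show (3 : Fin 4) ≠ 1 by decide)]; simp
  · simp only [wd_apply, pdl, psl, S.hyp.ee, he' S (show (2 : Fin 4) ≠ 1 by decide), he' S (show (3 : Fin 4) ≠ 1 by decide)]; simp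

theorem KK (δ δ' : ZMod 3) (v : V) : Ka Q e f δ (Kb Q e f δ' v) = 0 ∧ Kb Q e f δ' (Ka Q e f δ v) = 0 := by
  constructor
  · simp only [wd_apply, pdl, psl, S.hyp.ee, he S (show (2 : Fin 4) ≠ 1 by decide), hhj S (show (3 : Fin 4) ≠ 1 by decide),
      he' S (show (0 : Fin 4) ≠ 3 by decide)]; simp
  · simp only [wd_apply, pdl, psl, S.hyp.ee, he S (show (0 : Fin 4) ≠ 3 by decide), hhj S (show (1 : Fin 4) ≠ 3 by decide),
      he' S (show (2 : Fin 4) ≠ 1 by decide)]; simp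

omit S in
theorem add_sq {A B : V →ₗ[ZMod 3] V} (h : ∀ v, A (B v) = 0 ∧ B (A v) = 0) (v : V) :
    (A + B) ((A + B) v) = A (A v) + B (B v) := by
  rw [LinearMap.add_apply, LinearMap.add_apply, map_add, map_add, (h v).1, (h v).2, add_zero, zero_add]

omit S in
theorem add_cube {A B : V →ₗ[ZMod 3] V} (h : ∀ v, A (B v) = 0 ∧ B (A v) = 0) (hA : ∀ v, A (A (A v)) = 0)
    (hB : ∀ v, B (B (B v)) = 0) (v : V) : (A + B) ((A + B) ((A + B) v)) = 0 := by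
  rw [add_sq h, LinearMap.add_apply, map_add, map_add, map_add, map_add, hA, hB, (h _).1, (h _).2, map_zero, map_zero]
  simp

omit S in
theorem add_skew {A B : V →ₗ[ZMod 3] V} (hA : ∀ v w, polar Q (A v) w = - polar Q v (A w))
    (hB : ∀ v w, polar Q (B v) w = - polar Q v (B w)) (v w : V) :
    polar Q ((A + B) v) w = - polar Q v ((A + B) w) := by
  rw [LinearMap.add_apply, LinearMap.add_apply, pal, par, hA, hB]; ring

theorem Ka_cube (δ : ZMod 3) (v : V) : Ka Q e f δ (Ka Q e f δ (Ka Q e f δ v)) = 0 :=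
  (congrArg (Ka Q e f δ) (Ka_sq S δ v)).trans (by rw [map_smul, Ka_e S, smul_zero])

theorem Kb_cube (δ : ZMod 3) (v : V) : Kb Q e f δ (Kb Q e f δ (Kb Q e f δ v)) = 0 :=
  (congrArg (Kb Q e f δ) (Kb_sq S δ v)).trans (by rw [map_smul, Kb_e S, smul_zero])

theorem md_sn (t : Fin 8) : SN Q (md Q e f t) := by
  have a1 : ∀ v, Ja Q e (Ja Q e (Ja Q e v)) = 0 := fun v => Ja_sq S _
  have a2 : ∀ v, Jb Q e (Jb Q e (Jb Q e v)) = 0 := fun v => Jb_sq S _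
  fin_cases t
  · exact ⟨wd_skew _ _, a1⟩
  · exact ⟨wd_skew _ _, Ka_cube S _⟩
  · exact ⟨wd_skew _ _, Ka_cube S _⟩
  · exact ⟨add_skew (wd_skew _ _) (wd_skew _ _), add_cube (JJ S) a1 a2⟩
  · exact ⟨add_skew (wd_skew _ _) (wd_skew _ _), add_cube (KJ S _) (Ka_cube S _) a2⟩
  · exact ⟨add_skew (wd_skew _ _) (wd_skew _ _), add_cube (KJ S _) (Ka_cube S _) a2⟩
  · exact ⟨add_skew (wd_skew _ _) (wd_skew _ _), add_cube (KK S _ _) (Ka_cube S _) (Kb_cube S _)⟩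
  · exact ⟨add_skew (wd_skew _ _) (wd_skew _ _), add_cube (KK S _ _) (Ka_cube S _) (Kb_cube S _)⟩

/-! ### Normal forms of the models -/

/-- a `J` block at `a, b`. -/
theorem blkJ {n : V →ₗ[ZMod 3] V} (hn : SN Q n) {a b : Fin 4} (hab : a ≠ b) (h1 : n (f a) = - e b) (h2 : n (f b) = e a)
    (h3 : n (e a) = 0) (h4 : n (e b) = 0) : Fam Q n GJ AJ ![f a, f b, - e b, e a] := by
  have := famJ (v1 := f a) (v2 := f b) hn (by rw [h1, map_neg, h4, neg_zero]) (by rw [h2, h3]) (S.hyp.qf _) (S.hyp.ff _ _)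
    (S.hyp.qf _) (by rw [h2, S.hyp.fe, if_pos rfl])
  rw [h1, h2] at this
  exact this

/-- a `K` block at `a, b`. -/
theorem blkK {n : V →ₗ[ZMod 3] V} (hn : SN Q n) {a b : Fin 4} {δ : ZMod 3} (hδ : δ ≠ 0) (h1 : n (f a) = hw e f b δ)
    (h2 : n (hw e f b δ) = δ • e a) : Fam Q n (GK δ) AK ![f a, hw e f b δ, δ • e a] := by
  have := famK (w := f a) hδ hn (S.hyp.qf _) (by rw [h1, qh S])
  rw [h1, h2] at this
  exact this

theorem Ja_v : Ja Q e (f 0) = - e 1 ∧ Ja Q e (f 1) = e 0 ∧ Ja Q e (f 2) = 0 ∧ Ja Q e (f 3) = 0 ∧ (∀ i, Ja Q e (e i) = 0) := by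
  refine ⟨?_, ?_, ?_, ?_, fun i => ?_⟩ <;> rw [wd_apply] <;> simp [S.hyp.fe, S.hyp.ee]

theorem Jb_v : Jb Q e (f 2) = - e 3 ∧ Jb Q e (f 3) = e 2 ∧ Jb Q e (f 0) = 0 ∧ Jb Q e (f 1) = 0 ∧ (∀ i, Jb Q e (e i) = 0) := by
  refine ⟨?_, ?_, ?_, ?_, fun i => ?_⟩ <;> rw [wd_apply] <;> simp [S.hyp.fe, S.hyp.ee]

theorem Ka_v (δ : ZMod 3) : Ka Q e f δ (f 0) = hw e f 1 δ ∧ Ka Q e f δ (f 2) = 0 ∧ Ka Q e f δ (f 3) = 0 ∧
    Ka Q e f δ (e 2) = 0 ∧ Ka Q e f δ (e 3) = 0 := by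
  refine ⟨?_, ?_, ?_, ?_, ?_⟩ <;> rw [wd_apply] <;>
    simp [S.hyp.fe, S.hyp.ee, hf S (show (0 : Fin 4) ≠ 1 by decide), hf S (show (2 : Fin 4) ≠ 1 by decide),
      hf S (show (3 : Fin 4) ≠ 1 by decide), he S (show (2 : Fin 4) ≠ 1 by decide), he S (show (3 : Fin 4) ≠ 1 by decide)]

theorem Kb_v (δ : ZMod 3) : Kb Q e f δ (f 2) = hw e f 3 δ ∧ Kb Q e f δ (f 0) = 0 ∧ Kb Q e f δ (f 1) = 0 ∧
    Kb Q e f δ (e 0) = 0 ∧ Kb Q e f δ (e 1) = 0 := by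
  refine ⟨?_, ?_, ?_, ?_, ?_⟩ <;> rw [wd_apply] <;>
    simp [S.hyp.fe, S.hyp.ee, hf S (show (0 : Fin 4) ≠ 3 by decide), hf S (show (2 : Fin 4) ≠ 3 by decide),
      hf S (show (1 : Fin 4) ≠ 3 by decide), he S (show (0 : Fin 4) ≠ 3 by decide), he S (show (1 : Fin 4) ≠ 3 by decide)]

theorem Jb_h (δ : ZMod 3) : Jb Q e (hw e f 1 δ) = 0 := by
  rw [hw, map_add, map_smul, (Jb_v S).2.2.2.2, (Jb_v S).2.2.2.1, smul_zero, add_zero]

theorem Kb_h1 (δ δ' : ZMod 3) : Kb Q e f δ' (hw e f 1 δ) = 0 := by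
  rw [hw, map_add, map_smul, (Kb_v S δ').2.2.2.2, (Kb_v S δ').2.2.1, smul_zero, add_zero]

theorem Ka_h3 (δ δ' : ZMod 3) : Ka Q e f δ (hw e f 3 δ') = 0 := by
  rw [hw, map_add, map_smul, (Ka_v S δ).2.2.2.2, (Ka_v S δ).2.2.1, smul_zero, add_zero]

theorem nf0 : NF Q (md Q e f 0) GJ AJ := by
  refine ⟨_, blkJ S (md_sn S 0) (a := 0) (b := 1) (by decide) (Ja_v S).1 (Ja_v S).2.1 ((Ja_v S).2.2.2.2 _) ((Ja_v S).2.2.2.2 _),
    fun v hv => ?_⟩
  have h2 := hv 2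
  have h3 := hv 3
  simp only [cons_val, polar_neg_left, neg_eq_zero] at h2 h3
  rw [pc] at h2 h3
  change wd Q (e 1) (e 0) v = 0
  rw [wd_apply, h2, h3]; simp

theorem nfK {δ : ZMod 3} (hδ : δ ≠ 0) (hn : SN Q (Ka Q e f δ)) : NF Q (Ka Q e f δ) (GK δ) AK := by
  refine ⟨_, blkK S hn (a := 0) (b := 1) hδ (Ka_v S δ).1 (Ka_h S δ), fun v hv => ?_⟩
  have h2 := hv 1
  have h3 := hv 2
  simp only [cons_val, psl, mul_eq_zero, hδ, false_or] at h2 h3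
  rw [pc] at h2 h3
  rw [wd_apply, h2, h3]; simp

theorem nf3 : NF Q (md Q e f 3) (fromBlocks GJ 0 0 GJ) (fromBlocks AJ 0 0 AJ) := by
  have hn := md_sn S 3
  have b1 := blkJ S hn (a := 0) (b := 1) (by decide)
    (by change (Ja Q e + Jb Q e) _ = _; rw [LinearMap.add_apply, (Ja_v S).1, (Jb_v S).2.2.1, add_zero])
    (by change (Ja Q e + Jb Q e) _ = _; rw [LinearMap.add_apply, (Ja_v S).2.1, (Jb_v S).2.2.2.1, add_zero])
    (by change (Ja Q e + Jb Q e) _ = _; rw [LinearMap.add_apply, (Ja_v S).2.2.2.2, (Jb_v S).2.2.2.2, add_zero])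
    (by change (Ja Q e + Jb Q e) _ = _; rw [LinearMap.add_apply, (Ja_v S).2.2.2.2, (Jb_v S).2.2.2.2, add_zero])
  have b2 := blkJ S hn (a := 2) (b := 3) (by decide)
    (by change (Ja Q e + Jb Q e) _ = _; rw [LinearMap.add_apply, (Ja_v S).2.2.1, (Jb_v S).1, zero_add])
    (by change (Ja Q e + Jb Q e) _ = _; rw [LinearMap.add_apply, (Ja_v S).2.2.2.1, (Jb_v S).2.1, zero_add])
    (by change (Ja Q e + Jb Q e) _ = _; rw [LinearMap.add_apply, (Ja_v S).2.2.2.2, (Jb_v S).2.2.2.2, add_zero])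
    (by change (Ja Q e + Jb Q e) _ = _; rw [LinearMap.add_apply, (Ja_v S).2.2.2.2, (Jb_v S).2.2.2.2, add_zero])
  refine ⟨_, b1.sum b2 ?_, fun v hv => ?_⟩
  · intro j i
    fin_cases j <;> fin_cases i <;>
      simp [S.hyp.ee, S.hyp.ef, S.hyp.fe, S.hyp.ff, polar_neg_right]
  · have h1 := hv (Sum.inl 2)
    have h2 := hv (Sum.inl 3)
    have k1 := hv (Sum.inr 2)
    have k2 := hv (Sum.inr 3)
    simp only [Sum.elim_inl, Sum.elim_inr, cons_val, polar_neg_left, neg_eq_zero] at h1 h2 k1 k2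
    rw [pc] at h1 h2 k1 k2
    change (Ja Q e + Jb Q e) v = 0
    rw [LinearMap.add_apply, wd_apply, wd_apply, h1, h2, k1, k2]; simp

theorem nfKJ {δ : ZMod 3} (hδ : δ ≠ 0) (hn : SN Q (Ka Q e f δ + Jb Q e)) :
    NF Q (Ka Q e f δ + Jb Q e) (fromBlocks (GK δ) 0 0 GJ) (fromBlocks AK 0 0 AJ) := by
  have b1 := blkK S hn (a := 0) (b := 1) hδ
    (by rw [LinearMap.add_apply, (Ka_v S δ).1, (Jb_v S).2.2.1, add_zero])
    (by rw [LinearMap.add_apply, Ka_h S δ, Jb_h S, add_zero])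
  have b2 := blkJ S hn (a := 2) (b := 3) (by decide)
    (by rw [LinearMap.add_apply, (Ka_v S δ).2.1, (Jb_v S).1, zero_add])
    (by rw [LinearMap.add_apply, (Ka_v S δ).2.2.1, (Jb_v S).2.1, zero_add])
    (by rw [LinearMap.add_apply, (Ka_v S δ).2.2.2.1, (Jb_v S).2.2.2.2, add_zero])
    (by rw [LinearMap.add_apply, (Ka_v S δ).2.2.2.2, (Jb_v S).2.2.2.2, add_zero])
  refine ⟨_, b1.sum b2 ?_, fun v hv => ?_⟩
  · intro j i
    fin_cases j <;> fin_cases i <;>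
      simp [S.hyp.ee, S.hyp.ef, S.hyp.fe, S.hyp.ff, polar_neg_right, psl, he' S (show (3 : Fin 4) ≠ 1 by decide),
        he' S (show (2 : Fin 4) ≠ 1 by decide), hf' S (show (3 : Fin 4) ≠ 1 by decide),
        hf' S (show (2 : Fin 4) ≠ 1 by decide)]
  · have h1 := hv (Sum.inl 1)
    have h2 := hv (Sum.inl 2)
    have k1 := hv (Sum.inr 2)
    have k2 := hv (Sum.inr 3)
    simp only [Sum.elim_inl, Sum.elim_inr, cons_val, polar_neg_left, neg_eq_zero, psl, mul_eq_zero, hδ, false_or] at h1 h2 k1 k2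
    rw [pc] at h1 h2 k1 k2
    rw [LinearMap.add_apply, wd_apply, wd_apply, h1, h2, k1, k2]; simp

theorem nfKK {δ δ' : ZMod 3} (hδ : δ ≠ 0) (hδ' : δ' ≠ 0) (hn : SN Q (Ka Q e f δ + Kb Q e f δ')) :
    NF Q (Ka Q e f δ + Kb Q e f δ') (fromBlocks (GK δ) 0 0 (GK δ')) (fromBlocks AK 0 0 AK) := by
  have b1 := blkK S hn (a := 0) (b := 1) hδ
    (by rw [LinearMap.add_apply, (Ka_v S δ).1, (Kb_v S δ').2.1, add_zero])
    (by rw [LinearMap.add_apply, Ka_h S δ, Kb_h1 S, add_zero])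
  have b2 := blkK S hn (a := 2) (b := 3) hδ'
    (by rw [LinearMap.add_apply, (Ka_v S δ).2.1, (Kb_v S δ').1, zero_add])
    (by rw [LinearMap.add_apply, Ka_h3 S, Kb_h S δ', zero_add])
  refine ⟨_, b1.sum b2 ?_, fun v hv => ?_⟩
  · intro j i
    fin_cases j <;> fin_cases i <;>
      simp [S.hyp.ee, S.hyp.ef, S.hyp.fe, S.hyp.ff, psl, psr, he' S (show (2 : Fin 4) ≠ 1 by decide),
        hf' S (show (2 : Fin 4) ≠ 1 by decide), hf S (show (0 : Fin 4) ≠ 3 by decide),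
        he S (show (0 : Fin 4) ≠ 3 by decide), hhj S (show (1 : Fin 4) ≠ 3 by decide)]
  · have h1 := hv (Sum.inl 1)
    have h2 := hv (Sum.inl 2)
    have k1 := hv (Sum.inr 1)
    have k2 := hv (Sum.inr 2)
    simp only [Sum.elim_inl, Sum.elim_inr, cons_val, psl, mul_eq_zero, hδ, hδ', false_or] at h1 h2 k1 k2
    rw [pc] at h1 h2 k1 k2
    rw [LinearMap.add_apply, wd_apply, wd_apply, h1, h2, k1, k2]; simp

end Cfsg.Agent.H42.Oct
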