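import Cfsg.Agent.OutD4.Final
import Mathlib.GroupTheory.GroupAction.Quotient

set_option autoImplicit false
set_option maxRecDepth 100000

/-!
The outer automorphism group of the group of type D4 over the field of three elements is `S₄`.
-/

namespace Cfsg.Agent.H42.OctOut

open Subgroup Cfsg.Agent.OutD4

section grp

theorem perm3_b : ∀ x : Equiv.Perm (Fin 3), x ≠ 1 → ∃ y : Equiv.Perm (Fin 3),
    (y * x * y⁻¹ * x⁻¹) ≠ 1 ∧ (y * x * y⁻¹ * x⁻¹) * (y * x * y⁻¹ * x⁻¹) * (y * x * y⁻¹ * x⁻¹) = 1 := by decide +kernel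

variable {O : Type*} [Group O] [Finite O] {N : Subgroup O} [N.Normal] (h2 : ∀ x ∈ N, x * x = 1) (hidx : N.index = 6)
  (hfix : ∀ p : O, p ∉ N → p ^ 3 = 1 → ∀ x ∈ N, p * x = x * p → x = 1) (hN4 : Nat.card N ≤ 4)
  (h4 : 4 ∣ Nat.card O) {S : Subgroup O} (e : S ≃* Equiv.Perm (Fin 3))
include h2 hidx hfix hN4 h4 e

theorem card_N : Nat.card N = 4 := by
  have h1 := N.card_mul_index
  rw [hidx] at h1
  have h0 : 0 < Nat.card N := Nat.card_pos
  obtain ⟨k, hk⟩ := h4
  have h5 : Nat.card N = 2 ∨ Nat.card N = 4 := by omega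
  rcases h5 with h5 | h5
  · exfalso
    obtain ⟨p, -, hp, hpN, -⟩ := exists_three h2 e
    have : Fact (Nat.Prime 2) := ⟨Nat.prime_two⟩
    obtain ⟨x, y, hxy, hall⟩ := Nat.card_eq_two_iff.1 h5
    have hu : (Set.univ : Set N) = {x, y} := hall.symm
    -- pick a nontrivial element
    obtain ⟨z, hz⟩ : ∃ z : N, z ≠ 1 := by
      by_cases hx : x = 1
      · exact ⟨y, fun h => hxy (hx.trans h.symm)⟩
      · exact ⟨x, hx⟩
    have huniq : ∀ w : N, w ≠ 1 → w = z := by
      intro w hw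
      have a1 : w ∈ ({x, y} : Set N) := by rw [← hu]; trivial
      have a2 : z ∈ ({x, y} : Set N) := by rw [← hu]; trivial
      have a3 : (1 : N) ∈ ({x, y} : Set N) := by rw [← hu]; trivial
      rcases a1 with a1 | a1 <;> rcases a2 with a2 | a2 <;> rcases a3 with a3 | a3
      · rw [a1, a2]
      · rw [a1, a2]
      · exact absurd (a1.trans a3.symm) hw
      · exact absurd (a2.trans a3.symm) hz
      · exact absurd (a2.trans a3.symm) hz
      · exact absurd (a1.trans a3.symm) hw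
      · rw [a1, a2]
      · rw [a1, a2]
    have h6 := huniq ⟨p * z * p⁻¹, Subgroup.Normal.conj_mem inferInstance (z : O) z.2 p⟩ (by
      intro h
      have h7 : p * (z : O) * p⁻¹ = 1 := congrArg Subtype.val h
      rw [mul_inv_eq_one, mul_eq_left] at h7
      exact hz (Subtype.ext h7))
    have h8 : p * (z : O) * p⁻¹ = z := congrArg Subtype.val h6
    have h9 := hfix p hpN (by rw [← hp]; exact pow_orderOf_eq_one p) z z.2 (by rwa [mul_inv_eq_iff_eq_mul] at h8)
    exact hz (Subtype.ext h9)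
  · exact h5

theorem exists_perm : ∃ (θ : O ≃* Equiv.Perm (Fin 4)) (p : Fin 4), ∀ s, s ∈ S ↔ θ s p = p := by
  have hN := card_N h2 hidx hfix hN4 h4 e
  have hO : Nat.card O = 24 := by rw [← N.card_mul_index, hN, hidx]
  have hS : Nat.card S = 6 := by
    rw [Nat.card_congr e.toEquiv, Nat.card_eq_fintype_card, Fintype.card_perm]; rfl
  have hSi : S.index = 4 := by
    have := S.card_mul_index
    rw [hS, hO] at this
    omega
  have hker : (MulAction.toPermHom O (O ⧸ S)).ker = ⊥ := by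
    rw [← Subgroup.normalCore_eq_ker, eq_bot_iff]
    intro x hx
    rw [mem_bot]
    by_contra hne
    have hxS : x ∈ S := S.normalCore_le hx
    have h1 : e ⟨x, hxS⟩ ≠ 1 := by
      intro h
      exact hne (congrArg Subtype.val ((map_eq_one_iff e e.injective).1 h))
    obtain ⟨y, hy1, hy2⟩ := perm3_b _ h1
    obtain ⟨z, rfl⟩ := e.surjective y
    rw [← map_inv, ← map_inv, ← map_mul, ← map_mul, ← map_mul] at hy1 hy2
    rw [← map_mul, ← map_mul] at hy2
    set q : O := (z : O) * x * (z : O)⁻¹ * x⁻¹ with hq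
    have hqK : q ∈ S.normalCore := mul_mem (Subgroup.Normal.conj_mem inferInstance x hx _) (inv_mem hx)
    have hq1 : q ≠ 1 := by
      intro h
      apply hy1
      rw [map_eq_one_iff e e.injective]
      exact Subtype.ext h
    have hq3 : q ^ 3 = 1 := by
      rw [map_eq_one_iff e e.injective] at hy2
      have := congrArg Subtype.val hy2
      rw [pow_succ, pow_two]
      exact this
    have hqN : q ∉ N := fun h => hq1 (inf_eq h2 e (S.normalCore_le hqK) h)
    have hNt : ∀ n ∈ N, n = 1 := by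
      intro n hn
      refine hfix q hqN hq3 n hn ?_
      have h5 : q * n * q⁻¹ * n⁻¹ ∈ N := mul_mem (Subgroup.Normal.conj_mem inferInstance n hn _) (inv_mem hn)
      have h6 : q * n * q⁻¹ * n⁻¹ ∈ S := by
        have : q * n * q⁻¹ * n⁻¹ = q * (n * q⁻¹ * n⁻¹) := by group
        rw [this]
        exact S.normalCore_le (mul_mem hqK (Subgroup.Normal.conj_mem inferInstance _ (inv_mem hqK) n))
      have h7 := inf_eq h2 e h6 h5
      rw [mul_inv_eq_one, mul_inv_eq_iff_eq_mul] at h7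
      exact h7
    have : Nat.card N = 1 := by
      rw [Subgroup.card_eq_one, eq_bot_iff]
      intro n hn
      rw [mem_bot]; exact hNt n hn
    omega
  have hinj : Function.Injective (MulAction.toPermHom O (O ⧸ S)) := (MonoidHom.ker_eq_bot_iff _).1 hker
  have hc4 : Nat.card (O ⧸ S) = 4 := hSi
  obtain ⟨e4⟩ : Nonempty (O ⧸ S ≃ Fin 4) := ⟨Finite.equivFinOfCardEq hc4⟩
  have hbij : Function.Bijective (MulAction.toPermHom O (O ⧸ S)) := by
    have : Nat.card (Equiv.Perm (O ⧸ S)) = 24 := by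
      rw [Nat.card_congr (Equiv.permCongr e4), Nat.card_eq_fintype_card, Fintype.card_perm]; rfl
    exact (Nat.bijective_iff_injective_and_card _).2 ⟨hinj, by rw [hO, this]⟩
  refine ⟨(MulEquiv.ofBijective _ hbij).trans (Equiv.permCongrHom e4), e4 (QuotientGroup.mk 1), fun s => ?_⟩
  have h8 : (((MulEquiv.ofBijective _ hbij).trans (Equiv.permCongrHom e4)) s) (e4 (QuotientGroup.mk 1)) =
      e4 (QuotientGroup.mk (s * 1)) := by
    change e4 (s • (e4.symm (e4 (QuotientGroup.mk 1)))) = _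
    rw [e4.symm_apply_apply]; rfl
  rw [h8, e4.apply_eq_iff_eq, mul_one, eq_comm, QuotientGroup.eq, inv_one, one_mul]

end grp

/-! ### The group of classes of diagonal automorphisms has at most four elements -/

open Cfsg.Lie Cfsg.Agent.Chev Cfsg.Agent.ChevGrp Cfsg.Agent.ChevTw Cfsg.Agent.ChevWeyl Cfsg.Agent.ChevU Cfsg.Agent.AutChev
open Cfsg.Agent.Tw3 Cfsg.Agent.ChevGrp.DData

theorem inner_of {δ : A4} {c : Fin chevD4.rank → F3} (h2 : IsDat goodD4 δ.1 1 c (fun _ => RingEquiv.refl F3))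
    (h02 : c i0 = c i2) (h23 : c i2 = c i3) : outHom goodD4 dD4 δ = 1 := by
  have hne : ∀ i : Fin chevD4.rank, c i ≠ 0 := fun i => (h2 i).1
  obtain ⟨u0, hu0⟩ : ∃ u : F3ˣ, (u : F3) = c i0 := ⟨Units.mk0 _ (hne i0), rfl⟩
  obtain ⟨u1, hu1⟩ : ∃ u : F3ˣ, (u : F3) = c i1 := ⟨Units.mk0 _ (hne i1), rfl⟩
  obtain ⟨e', e0, e1, e2, e3⟩ : ∃ e' : Fin chevD4.rank → F3ˣ, e' i0 = u1⁻¹ ∧ e' i1 = u0⁻¹ ∧ e' i2 = 1 ∧ e' i3 = 1 := by
    refine ⟨(![u1⁻¹, u0⁻¹, 1, 1] : Fin 4 → F3ˣ), rfl, rfl, rfl, rfl⟩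
  obtain ⟨m0, m2, m3, m1⟩ := mon_D4 e'
  rw [e1, inv_inv] at m0 m2 m3
  rw [e0, e2, e3, inv_inv, inv_one, mul_one, mul_one] at m1
  apply out_of_dat goodD4 dD4 rf4 (e := e')
  have hcoef : (fun i : Fin chevD4.rank => ((mon (cmat chevD4) e' i : F3ˣ) : F3)) = c := by
    funext i
    rcases i_cases i with rfl | rfl | rfl | rfl
    · rw [m0, hu0]
    · rw [m1, hu1]
    · rw [m2, hu0, h02]
    · rw [m3, hu0, h02, h23]
  rw [hcoef]
  exact h2

theorem arith4 : ∀ a b a' b' : F3, a ≠ 0 → b ≠ 0 → a' ≠ 0 → b' ≠ 0 → a * b = a' * b' → a * a' = b * b' := by decide +kernel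

theorem card_DN_le : Nat.card DN ≤ 4 := by
  classical
  have hex : ∀ x : DN, ∃ (δ : A4) (c : Fin chevD4.rank → F3), outHom goodD4 dD4 δ = x.1 ∧
      IsDat goodD4 δ.1 1 c (fun _ => RingEquiv.refl F3) := by
    rintro ⟨_, ⟨δ, hδ, rfl⟩⟩
    obtain ⟨c, h⟩ := dat δ
    have hδ' : permHom goodD4 dD4 δ = 1 := hδ
    rw [hδ'] at h
    exact ⟨δ, c, rfl, h⟩
  choose δ c h1 h2 using hex
  let ν : DN → F3ˣ × F3ˣ := fun x => (Units.mk0 (c x i0 * c x i2) (mul_ne_zero (h2 x i0).1 (h2 x i2).1),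
    Units.mk0 (c x i0 * c x i3) (mul_ne_zero (h2 x i0).1 (h2 x i3).1))
  have hinj : Function.Injective ν := by
    intro x y hxy
    have e1 : c x i0 * c x i2 = c y i0 * c y i2 := congrArg (fun p : F3ˣ × F3ˣ => (p.1 : F3)) hxy
    have e2 : c x i0 * c x i3 = c y i0 * c y i3 := congrArg (fun p : F3ˣ × F3ˣ => (p.2 : F3)) hxy
    have d := dat_mul (h2 x) (h2 y)
    have e3 : (1 : Equiv.Perm (Fin chevD4.rank)) * 1 = 1 := one_mul 1
    rw [e3] at d
    have hin := inner_of (δ := δ x * δ y) (c := fun i => c x ((1 : Equiv.Perm (Fin chevD4.rank)) i) * c y i) d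
      (arith4 _ _ _ _ (h2 x i0).1 (h2 x i2).1 (h2 y i0).1 (h2 y i2).1 e1)
      (by
        have a1 := arith4 _ _ _ _ (h2 x i0).1 (h2 x i2).1 (h2 y i0).1 (h2 y i2).1 e1
        have a2 := arith4 _ _ _ _ (h2 x i0).1 (h2 x i3).1 (h2 y i0).1 (h2 y i3).1 e2
        exact a1.symm.trans a2)
    rw [map_mul, h1, h1] at hin
    have hy := sq_DN y.1 y.2
    apply Subtype.ext
    rw [← mul_left_inj (y.1 : Cfsg.Out ↥(chevD4.group F3)), hin, hy]
  have := Nat.card_le_card_of_injective ν hinj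
  refine this.trans (le_of_eq ?_)
  rw [Nat.card_eq_fintype_card, Fintype.card_prod]
  decide +kernel

end Cfsg.Agent.H42.OctOut
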