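import Cfsg.Agent.H42.RtHBc

set_option autoImplicit false

namespace Cfsg.Agent.H42.RtHB

open Cfsg.Agent.H92.Rt
open scoped ComplexConjugate

theorem comm_quot {K : Type*} [Group K] (U B : Subgroup K) (hBc : ∀ b ∈ B, ∀ c ∈ B, b * c * b⁻¹ * c⁻¹ ∈ U)
    [(U.subgroupOf B).Normal] (x y : B ⧸ U.subgroupOf B) : x * y = y * x := by
  induction x using QuotientGroup.induction_on with
  | H x =>
    induction y using QuotientGroup.induction_on with
    | H y =>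
      rw [← QuotientGroup.mk_mul, ← QuotientGroup.mk_mul, QuotientGroup.eq, Subgroup.mem_subgroupOf]
      have := hBc (y⁻¹ : B) (y⁻¹ : B).2 (x⁻¹ : B) (x⁻¹ : B).2
      have e : (((x * y)⁻¹ * (y * x) : B) : K) = ((y⁻¹ : B) : K) * ((x⁻¹ : B) : K) * ((y⁻¹ : B) : K)⁻¹ * ((x⁻¹ : B) : K)⁻¹ := by
        rw [Subgroup.coe_mul, Subgroup.coe_inv, Subgroup.coe_mul, Subgroup.coe_mul, Subgroup.coe_inv, Subgroup.coe_inv, inv_inv, inv_inv,
          mul_inv_rev]
        simp only [mul_assoc]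
      rw [e]
      exact this

theorem fin_ineq (N q T : ℝ) (hN : N * 2 = q - 1) (hq : 27 ≤ q) (hT : 2 * T < q ^ 2 * (q - 1)) :
    N * T < (N * q) ^ 2 := by
  have hNpos : 0 < N := by linarith
  have h5 : T < q ^ 2 * N := by
    have : q ^ 2 * (q - 1) = 2 * (q ^ 2 * N) := by rw [← hN]; ring
    linarith
  have h6 := mul_lt_mul_of_pos_left h5 hNpos
  calc N * T < N * (q ^ 2 * N) := h6
    _ = (N * q) ^ 2 := by ring

theorem h_borel_aux {K : Type*} [Group K] [Fintype K] {q m : ℕ} {U A : Subgroup K} {k s r : K} (D : KD q m U A k s r)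
    (B : Subgroup K) (hBN : B = Subgroup.normalizer (U : Set K)) [Fintype B]
    (h : K → ℂ) (hcl : ∀ g y : K, h (g * y * g⁻¹) = h y) (hsup : ∀ y : K, ¬ Odd (orderOf y) → h y = 0)
    (n1 s' : ℤ) (h1 : h 1 = n1) (hU : ∀ x ∈ U, x ≠ 1 → h x = s')
    (hB : ∀ ψ : B →* ℂ, (∀ b : B, (b : K) ∈ U → ψ b = 1) →
      ∃ z : ℤ, ∑ b : B, h b * ψ b⁻¹ = z * (Nat.card B : ℂ))
    (hnorm : 4 * ∑ y : K, ‖h y‖ ^ 2 < (q : ℝ) * ((q : ℝ) ^ 2 - 1)) : n1 + (q - 1) * s' = 0 := by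
  classical
  haveI hnor : (U.subgroupOf B).Normal := by
    rw [hBN]
    exact Subgroup.normal_in_normalizer
  letI cg : CommGroup (B ⧸ U.subgroupOf B) :=
    { (inferInstance : Group (B ⧸ U.subgroupOf B)) with
      mul_comm := comm_quot U B (by rw [hBN]; exact D.Bcomm) }
  letI : Fintype (Additive (B ⧸ U.subgroupOf B)) := Fintype.ofFinite _
  obtain ⟨π, hπdef⟩ : ∃ π : B → Additive (B ⧸ U.subgroupOf B), ∀ b, π b = Additive.ofMul (QuotientGroup.mk b) := ⟨_, fun _ => rfl⟩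
  have hπ : ∀ b c, π (b * c) = π b + π c := by
    intro b c
    rw [hπdef, hπdef, hπdef]
    rfl
  have hker : ∀ b, π b = 0 ↔ (b : K) ∈ U := by
    intro b
    rw [← Subgroup.mem_subgroupOf, ← QuotientGroup.eq_one_iff, hπdef]
    rfl
  obtain ⟨e1, e2⟩ := borel_est D B hBN π hπ hker h hcl hsup n1 s' h1 hU hnorm
  have hcardV : Nat.card (U.subgroupOf B) = q := by
    rw [← D.cardU]
    exact Nat.card_congr (Subgroup.subgroupOfEquivOfLe (by rw [hBN]; exact Subgroup.le_normalizer)).toEquiv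
  have hcardQ : Nat.card B = Fintype.card (Additive (B ⧸ U.subgroupOf B)) * q := by
    rw [Subgroup.card_eq_card_quotient_mul_card_subgroup (U.subgroupOf B), hcardV, ← Nat.card_eq_fintype_card]
    rfl
  have hq27 := D.q27
  have hNU : Nat.card B * 2 = q * (q - 1) := by
    rw [hBN]
    exact D.cardNU
  have hqR : (27 : ℝ) ≤ (q : ℝ) := by exact_mod_cast hq27
  have hN2 : (Fintype.card (Additive (B ⧸ U.subgroupOf B)) : ℝ) * 2 = (q : ℝ) - 1 := by
    have h3 : (Fintype.card (Additive (B ⧸ U.subgroupOf B))) * 2 = q - 1 := by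
      have : q * ((Fintype.card (Additive (B ⧸ U.subgroupOf B))) * 2) = q * (q - 1) := by
        rw [← hNU, hcardQ]; ring
      exact Nat.eq_of_mul_eq_mul_left (by omega) this
    have h4 : ((Fintype.card (Additive (B ⧸ U.subgroupOf B)) * 2 : ℕ) : ℝ) = ((q - 1 : ℕ) : ℝ) := by rw [h3]
    rw [Nat.cast_sub (by omega), Nat.cast_mul, Nat.cast_ofNat, Nat.cast_one] at h4
    exact h4
  have hlt := fin_ineq _ _ _ hN2 hqR e2
  have hcB : (Nat.card B : ℝ) = (Fintype.card (Additive (B ⧸ U.subgroupOf B)) : ℝ) * q := by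
    rw [hcardQ, Nat.cast_mul]
  rw [← hcB] at hlt
  have hfin := borel_abs π hπ (fun b : B => h b) (fun ψ hψ => hB ψ (fun b hb => hψ b ((hker b).mpr hb))) hlt 0
  have hfin' : ((n1 + (q - 1) * s' : ℤ) : ℂ) = 0 := e1.symm.trans hfin
  exact_mod_cast hfin'

theorem h_borel {K : Type*} [Group K] [Fintype K] {q m : ℕ} {U A : Subgroup K} {k s r : K} (D : KD q m U A k s r)
    [Fintype (Subgroup.normalizer (U : Set K))]
    (h : K → ℂ) (hcl : ∀ g y : K, h (g * y * g⁻¹) = h y) (hsup : ∀ y : K, ¬ Odd (orderOf y) → h y = 0)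
    (n1 s' : ℤ) (h1 : h 1 = n1) (hU : ∀ x ∈ U, x ≠ 1 → h x = s')
    (hB : ∀ ψ : Subgroup.normalizer (U : Set K) →* ℂ, (∀ b : Subgroup.normalizer (U : Set K), (b : K) ∈ U → ψ b = 1) →
      ∃ z : ℤ, ∑ b : Subgroup.normalizer (U : Set K), h b * ψ b⁻¹ = z * (Nat.card (Subgroup.normalizer (U : Set K)) : ℂ))
    (hnorm : 4 * ∑ y : K, ‖h y‖ ^ 2 < (q : ℝ) * ((q : ℝ) ^ 2 - 1)) : n1 + (q - 1) * s' = 0 :=
  h_borel_aux D (Subgroup.normalizer (U : Set K)) rfl h hcl hsup n1 s' h1 hU hB hnorm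

end Cfsg.Agent.H42.RtHB
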