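import Cfsg.Agent.H92.RtPhi
import Mathlib.Analysis.Fourier.FiniteAbelian.PontryaginDuality

/-!
# The Borel part of `h`: `n₁ + (q - 1) s' = 0`
-/

set_option autoImplicit false

namespace Cfsg.Agent.H42.RtHB

open Cfsg.Agent.H92.Rt
open scoped ComplexConjugate

theorem parseval {α : Type*} [AddCommGroup α] [Fintype α] (S : α → ℂ) :
    ∑ ψ : AddChar α ℂ, ‖∑ x, S x * ψ (-x)‖ ^ 2 = (Fintype.card α : ℝ) * ∑ x, ‖S x‖ ^ 2 := by
  classical
  have h1 : ∀ z : ℂ, ((‖z‖ ^ 2 : ℝ) : ℂ) = z * conj z := by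
    intro z
    rw [Complex.mul_conj, Complex.normSq_eq_norm_sq]
  have key : ((∑ ψ : AddChar α ℂ, ‖∑ x, S x * ψ (-x)‖ ^ 2 : ℝ) : ℂ) =
      (((Fintype.card α : ℝ) * ∑ x, ‖S x‖ ^ 2 : ℝ) : ℂ) := by
    rw [Complex.ofReal_sum, Complex.ofReal_mul, Complex.ofReal_sum]
    simp only [h1]
    have h2 : ∀ ψ : AddChar α ℂ, (∑ x, S x * ψ (-x)) * conj (∑ x, S x * ψ (-x)) =
        ∑ x, ∑ y, S x * conj (S y) * ψ (-x + y) := by
      intro ψ
      rw [map_sum, Finset.sum_mul_sum]
      refine Finset.sum_congr rfl fun x _ => Finset.sum_congr rfl fun y _ => ?_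
      rw [map_mul, ← AddChar.map_neg_eq_conj, neg_neg, AddChar.map_add_eq_mul]
      ring
    simp only [h2]
    rw [Finset.sum_comm]
    have h3 : ∀ x : α, ∑ ψ : AddChar α ℂ, ∑ y, S x * conj (S y) * ψ (-x + y) =
        (Fintype.card α : ℂ) * (S x * conj (S x)) := by
      intro x
      rw [Finset.sum_comm]
      have h4 : ∀ y : α, ∑ ψ : AddChar α ℂ, S x * conj (S y) * ψ (-x + y) =
          if y = x then (Fintype.card α : ℂ) * (S x * conj (S x)) else 0 := by
        intro y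
        rw [← Finset.mul_sum, AddChar.sum_apply_eq_ite]
        by_cases hxy : y = x
        · subst hxy
          rw [if_pos (by simp), if_pos rfl]
          ring
        · rw [if_neg (fun h => hxy (neg_add_eq_zero.mp h).symm), if_neg hxy, mul_zero]
      rw [Finset.sum_congr rfl fun y _ => h4 y, Finset.sum_ite_eq' Finset.univ x, if_pos (Finset.mem_univ x)]
    rw [Finset.sum_congr rfl fun x _ => h3 x, ← Finset.mul_sum]
    simp
  exact_mod_cast key

theorem borel_abs {B Q : Type*} [Group B] [Fintype B] [AddCommGroup Q] [Fintype Q] [DecidableEq Q] (π : B → Q)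
    (hπ : ∀ b c, π (b * c) = π b + π c) (g : B → ℂ)
    (hB : ∀ ψ : B →* ℂ, (∀ b, π b = 0 → ψ b = 1) → ∃ z : ℤ, ∑ b, g b * ψ b⁻¹ = z * (Nat.card B : ℂ))
    (hlt : (Fintype.card Q : ℝ) * ∑ x : Q, ‖∑ b with π b = x, g b‖ ^ 2 < (Nat.card B : ℝ) ^ 2) (x : Q) :
    ∑ b with π b = x, g b = 0 := by
  classical
  have hπ1 : π 1 = 0 := by
    have := hπ 1 1
    rw [mul_one] at this
    exact left_eq_add.mp this
  have hπinv : ∀ b, π b⁻¹ = - π b := by
    intro b
    have := hπ b⁻¹ b
    rw [inv_mul_cancel, hπ1] at this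
    exact (neg_eq_of_add_eq_zero_left this.symm).symm
  have hB0 : 0 < (Nat.card B : ℝ) := by
    exact_mod_cast Nat.card_pos
  have hz : ∀ ψ : AddChar Q ℂ, ∑ x, (∑ b with π b = x, g b) * ψ (-x) = 0 := by
    intro ψ
    obtain ⟨z, hz⟩ := hB { toFun := fun b => ψ (π b), map_one' := by rw [hπ1, AddChar.map_zero_eq_one],
                           map_mul' := fun b c => by rw [hπ, AddChar.map_add_eq_mul] } (by
      intro b hb
      show ψ (π b) = 1
      rw [hb, AddChar.map_zero_eq_one])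
    have hsum : ∑ x, (∑ b with π b = x, g b) * ψ (-x) = z * (Nat.card B : ℂ) := by
      rw [← hz]
      show _ = ∑ b, g b * ψ (π b⁻¹)
      rw [← Finset.sum_fiberwise Finset.univ π]
      refine Finset.sum_congr rfl fun x _ => ?_
      rw [Finset.sum_mul]
      refine Finset.sum_congr rfl fun b hb => ?_
      rw [Finset.mem_filter] at hb
      rw [hπinv, hb.2]
    have hle : ‖∑ x, (∑ b with π b = x, g b) * ψ (-x)‖ ^ 2 < (Nat.card B : ℝ) ^ 2 := by
      refine lt_of_le_of_lt ?_ hlt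
      rw [← parseval]
      exact Finset.single_le_sum (f := fun ψ : AddChar Q ℂ => ‖∑ x, (∑ b with π b = x, g b) * ψ (-x)‖ ^ 2)
        (fun _ _ => sq_nonneg _) (Finset.mem_univ ψ)
    rw [hsum, norm_mul, mul_pow] at hle
    have h1 : ‖(Nat.card B : ℂ)‖ = (Nat.card B : ℝ) := Complex.norm_natCast _
    rw [h1] at hle
    have h2 : ‖(z : ℂ)‖ ^ 2 = ((z ^ 2 : ℤ) : ℝ) := by
      rw [Complex.norm_intCast, sq_abs]
      push_cast
      rfl
    rw [h2] at hle
    have h3 : ((z ^ 2 : ℤ) : ℝ) < 1 := by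
      by_contra hcon
      push Not at hcon
      nlinarith [sq_nonneg (Nat.card B : ℝ), mul_pos hB0 hB0]
    have h4 : z ^ 2 < 1 := by exact_mod_cast h3
    have h5 : z = 0 := by nlinarith [sq_nonneg z]
    rw [hsum, h5]
    simp
  have hzero : (Fintype.card Q : ℝ) * ∑ x : Q, ‖∑ b with π b = x, g b‖ ^ 2 = 0 := by
    rw [← parseval]
    refine Finset.sum_eq_zero fun ψ _ => ?_
    rw [hz ψ]
    simp
  have hQ : (Fintype.card Q : ℝ) ≠ 0 := by
    exact_mod_cast Fintype.card_ne_zero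
  have h6 := (mul_eq_zero.mp hzero).resolve_left hQ
  have h7 := (Finset.sum_eq_zero_iff_of_nonneg (fun _ _ => sq_nonneg _)).mp h6 x (Finset.mem_univ x)
  exact norm_eq_zero.mp (pow_eq_zero_iff (two_ne_zero) |>.mp h7)

theorem finsum_conv {K : Type*} [Group K] [Fintype K] (B : Subgroup K) [Fintype B] (p : K → Prop) [DecidablePred p]
    (hp : ∀ y, p y → y ∈ B) (f : K → ℂ) :
    ∑ᶠ y ∈ {y : K | p y}, f y = ∑ b ∈ (Finset.univ : Finset B).filter (fun b : B => p (b : K)), f b := by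
  classical
  rw [finsum_mem_eq_finite_toFinset_sum f (Set.toFinite _)]
  have : (Set.toFinite {y : K | p y}).toFinset =
      ((Finset.univ : Finset B).filter (fun b : B => p (b : K))).map ⟨Subtype.val, Subtype.val_injective⟩ := by
    ext y
    simp only [Set.Finite.mem_toFinset, Set.mem_setOf_eq, Finset.mem_map, Finset.mem_filter, Finset.mem_univ, true_and,
      Function.Embedding.coeFn_mk, Subtype.exists, exists_and_left, exists_prop]
    constructor
    · intro hy
      exact ⟨y, hy, hp y hy, rfl⟩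
    · rintro ⟨a, ha, _, rfl⟩
      exact ha
  rw [this, Finset.sum_map]
  rfl

end Cfsg.Agent.H42.RtHB
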