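import Cfsg.Agent.H42.RtHBa

set_option autoImplicit false

namespace Cfsg.Agent.H42.RtHB

open Cfsg.Agent.H92.Rt
open scoped ComplexConjugate

theorem real_ineq (q n s F R H : ℝ) (hq : 27 ≤ q) (hF : 0 ≤ F) (hR : 0 ≤ R)
    (hreal : 2 * H = 2 * n ^ 2 + 2 * (q + 1) * ((q - 1) * s ^ 2) + (q + 1) * F + q * (q - 1) * R)
    (hnorm : 4 * H < q * (q ^ 2 - 1)) :
    2 * ((n + (q - 1) * s) ^ 2 + q * F) < q ^ 2 * (q - 1) := by
  have hRR : 0 ≤ q * (q - 1) * R := mul_nonneg (mul_nonneg (by linarith) (by linarith)) hR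
  have g1 : 4 * n ^ 2 + 4 * (q ^ 2 - 1) * s ^ 2 + 2 * (q + 1) * F < q * (q ^ 2 - 1) := by
    have e : 4 * n ^ 2 + 4 * (q ^ 2 - 1) * s ^ 2 + 2 * (q + 1) * F =
        2 * (2 * n ^ 2 + 2 * (q + 1) * ((q - 1) * s ^ 2) + (q + 1) * F) := by ring
    rw [e]
    linarith
  have g2 : (q + 1) * (n + (q - 1) * s) ^ 2 ≤ 2 * q * n ^ 2 + 2 * q * (q ^ 2 - 1) * s ^ 2 := by
    have e : 2 * q * n ^ 2 + 2 * q * (q ^ 2 - 1) * s ^ 2 - (q + 1) * (n + (q - 1) * s) ^ 2 =
        (q - 1) * (n - (q + 1) * s) ^ 2 := by ring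
    have h0 : 0 ≤ (q - 1) * (n - (q + 1) * s) ^ 2 := mul_nonneg (by linarith) (sq_nonneg _)
    linarith
  have g4 : q * (4 * n ^ 2 + 4 * (q ^ 2 - 1) * s ^ 2 + 2 * (q + 1) * F) < q * (q * (q ^ 2 - 1)) :=
    mul_lt_mul_of_pos_left g1 (by linarith)
  have g3 : (q + 1) * (2 * ((n + (q - 1) * s) ^ 2 + q * F)) < (q + 1) * (q ^ 2 * (q - 1)) := by
    have e1 : (q + 1) * (2 * ((n + (q - 1) * s) ^ 2 + q * F)) =
        2 * ((q + 1) * (n + (q - 1) * s) ^ 2) + q * (2 * (q + 1) * F) := by ring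
    have e2 : (q + 1) * (q ^ 2 * (q - 1)) = q * (q * (q ^ 2 - 1)) := by ring
    have e3 : q * (4 * n ^ 2 + 4 * (q ^ 2 - 1) * s ^ 2 + 2 * (q + 1) * F) =
        2 * (2 * q * n ^ 2 + 2 * q * (q ^ 2 - 1) * s ^ 2) + q * (2 * (q + 1) * F) := by ring
    rw [e1, e2]
    rw [e3] at g4
    linarith
  exact lt_of_mul_lt_mul_left g3 (by linarith)

section

variable {K Q : Type*} [Group K] (U B : Subgroup K) [Fintype B]

theorem card_filter_U (hUB : U ≤ B) [DecidablePred fun b : B => (b : K) ∈ U] :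
    ((Finset.univ : Finset B).filter (fun b : B => (b : K) ∈ U)).card = Nat.card U := by
  rw [← Fintype.card_subtype, ← Nat.card_eq_fintype_card]
  exact Nat.card_congr ⟨fun b => ⟨b.1.1, b.2⟩, fun u => ⟨⟨u.1, hUB u.2⟩, u.2⟩, fun b => rfl, fun u => rfl⟩

theorem filter_erase [DecidableEq B] [DecidablePred fun b : B => (b : K) ∈ U] [DecidablePred fun b : B => (b : K) ∈ U ∧ (b : K) ≠ 1] :
    (Finset.univ : Finset B).filter (fun b : B => (b : K) ∈ U ∧ (b : K) ≠ 1) =
        ((Finset.univ : Finset B).filter (fun b : B => (b : K) ∈ U)).erase 1 := by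
  ext b
  simp only [Finset.mem_filter, Finset.mem_univ, true_and, Finset.mem_erase, ne_eq]
  rw [and_comm]
  simp

theorem sum_const_U (hUB : U ≤ B) (hU1 : 1 ≤ Nat.card U) [DecidablePred fun b : B => (b : K) ∈ U ∧ (b : K) ≠ 1]
    (f : K → ℂ) (d : ℂ) (hd : ∀ x ∈ U, x ≠ 1 → f x = d) :
      ∑ b ∈ (Finset.univ : Finset B).filter (fun b : B => (b : K) ∈ U ∧ (b : K) ≠ 1), f b =
        ((Nat.card U : ℂ) - 1) * d := by
  classical
  have hcon : ∑ b ∈ (Finset.univ : Finset B).filter (fun b : B => (b : K) ∈ U ∧ (b : K) ≠ 1), f b =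
      ∑ b ∈ (Finset.univ : Finset B).filter (fun b : B => (b : K) ∈ U ∧ (b : K) ≠ 1), d :=
    Finset.sum_congr rfl fun b hb => hd b (Finset.mem_filter.mp hb).2.1 (Finset.mem_filter.mp hb).2.2
  rw [hcon, Finset.sum_const, filter_erase U B, Finset.card_erase_of_mem (by simp [U.one_mem]), card_filter_U U B hUB, nsmul_eq_mul,
      Nat.cast_sub hU1]
  simp

theorem sum_split_U [DecidablePred fun b : B => (b : K) ∈ U] [DecidablePred fun b : B => (b : K) ∈ U ∧ (b : K) ≠ 1] (f : K → ℂ) :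
    ∑ b ∈ (Finset.univ : Finset B).filter (fun b : B => (b : K) ∈ U), f b =
      f 1 + ∑ b ∈ (Finset.univ : Finset B).filter (fun b : B => (b : K) ∈ U ∧ (b : K) ≠ 1), f b := by
  classical
  rw [filter_erase U B]
  have := Finset.add_sum_erase ((Finset.univ : Finset B).filter (fun b : B => (b : K) ∈ U))
      (fun b : B => f b) (a := 1) (by simp [U.one_mem])
  rw [← this]
  simp

end

theorem card_fib {K Q : Type*} [Group K] (U B : Subgroup K) [Fintype B] [AddCommGroup Q] [DecidableEq Q] (hUB : U ≤ B) (π : B → Q)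
    (hπ : ∀ b c, π (b * c) = π b + π c) (hker : ∀ b, π b = 0 ↔ (b : K) ∈ U) (x : Q) :
    ((Finset.univ : Finset B).filter (fun b : B => π b = x)).card ≤ Nat.card U := by
  classical
  rcases ((Finset.univ : Finset B).filter (fun b : B => π b = x)).eq_empty_or_nonempty with he | ⟨b0, hb0⟩
  · rw [he, Finset.card_empty]
    exact Nat.zero_le _
  · rw [Finset.mem_filter] at hb0
    rw [← card_filter_U U B hUB]
    have hπ1 : π 1 = 0 := by
      have := hπ 1 1
      rw [mul_one] at this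
      exact left_eq_add.mp this
    have hπinv : ∀ b, π b⁻¹ = - π b := by
      intro b
      have := hπ b⁻¹ b
      rw [inv_mul_cancel, hπ1] at this
      exact (neg_eq_of_add_eq_zero_left this.symm).symm
    refine Finset.card_le_card_of_injOn (fun b : B => b0⁻¹ * b) ?_ ?_
    · intro b hb
      rw [Finset.mem_coe, Finset.mem_filter] at hb
      rw [Finset.mem_coe, Finset.mem_filter]
      refine ⟨Finset.mem_univ _, ?_⟩
      rw [← hker, hπ, hπinv, hb0.2, hb.2, neg_add_cancel]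
    · intro b _ c _ hbc
      exact mul_left_cancel hbc

theorem fib_est {K Q : Type*} [Group K] (U B : Subgroup K) [Fintype B] [AddCommGroup Q] [Fintype Q] [DecidableEq Q]
    (hUB : U ≤ B) (π : B → Q)
    (hπ : ∀ b c, π (b * c) = π b + π c) (hker : ∀ b, π b = 0 ↔ (b : K) ∈ U) (h : K → ℂ) (z : ℤ)
    (hS0 : ∑ b ∈ (Finset.univ : Finset B).filter (fun b : B => π b = 0), h b = (z : ℂ))
    (F : B → ℝ) (hF0 : ∀ b, 0 ≤ F b) (hF : ∀ b : B, (b : K) ∉ U → F b = ‖h b‖ ^ 2) :
    ∑ x : Q, ‖∑ b ∈ (Finset.univ : Finset B).filter (fun b : B => π b = x), h b‖ ^ 2 ≤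
      (z : ℝ) ^ 2 + (Nat.card U : ℝ) * ∑ b, F b := by
  have hSx : ∀ x : Q, ‖∑ b ∈ (Finset.univ : Finset B).filter (fun b : B => π b = x), h b‖ ^ 2 ≤
      (if x = 0 then (z : ℝ) ^ 2 else 0) +
        (Nat.card U : ℝ) * ∑ b ∈ (Finset.univ : Finset B).filter (fun b : B => π b = x), F b := by
    intro x
    by_cases hx : x = 0
    · subst hx
      rw [if_pos rfl, hS0, Complex.norm_intCast, sq_abs]
      have : 0 ≤ (Nat.card U : ℝ) * ∑ b ∈ (Finset.univ : Finset B).filter (fun b : B => π b = 0), F b :=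
        mul_nonneg (Nat.cast_nonneg _) (Finset.sum_nonneg fun b _ => hF0 b)
      linarith
    · rw [if_neg hx, zero_add]
      have e1 : ∑ b ∈ (Finset.univ : Finset B).filter (fun b : B => π b = x), F b =
          ∑ b ∈ (Finset.univ : Finset B).filter (fun b : B => π b = x), ‖h b‖ ^ 2 := by
        refine Finset.sum_congr rfl fun b hb => ?_
        rw [Finset.mem_filter] at hb
        have : ¬ (b : K) ∈ U := by
          intro hbU
          rw [← hker, hb.2] at hbU
          exact hx hbU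
        exact hF b this
      rw [e1]
      have e3 : ‖∑ b ∈ (Finset.univ : Finset B).filter (fun b : B => π b = x), h b‖ ^ 2 ≤
          (∑ b ∈ (Finset.univ : Finset B).filter (fun b : B => π b = x), ‖h b‖) ^ 2 :=
        pow_le_pow_left₀ (norm_nonneg _) (norm_sum_le _ _) 2
      have e4 := sq_sum_le_card_mul_sum_sq (s := (Finset.univ : Finset B).filter (fun b : B => π b = x))
        (f := fun b : B => ‖h b‖)
      have e5 : (((Finset.univ : Finset B).filter (fun b : B => π b = x)).card : ℝ) ≤ (Nat.card U : ℝ) := by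
        exact_mod_cast card_fib U B hUB π hπ hker x
      have e6 : 0 ≤ ∑ b ∈ (Finset.univ : Finset B).filter (fun b : B => π b = x), ‖h b‖ ^ 2 :=
        Finset.sum_nonneg fun b _ => sq_nonneg _
      exact (e3.trans e4).trans (mul_le_mul_of_nonneg_right e5 e6)
  calc _ ≤ ∑ x : Q, ((if x = 0 then (z : ℝ) ^ 2 else 0) +
        (Nat.card U : ℝ) * ∑ b ∈ (Finset.univ : Finset B).filter (fun b : B => π b = x), F b) :=
        Finset.sum_le_sum fun x _ => hSx x
      _ = _ := by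
        rw [Finset.sum_add_distrib, Finset.sum_ite_eq' Finset.univ (0 : Q), if_pos (Finset.mem_univ _), ← Finset.mul_sum,
          Finset.sum_fiberwise]

end Cfsg.Agent.H42.RtHB
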