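import Cfsg.Agent.H42.RtHBb

set_option autoImplicit false

namespace Cfsg.Agent.H42.RtHB

open Cfsg.Agent.H92.Rt
open scoped ComplexConjugate

theorem borel_est {K Q : Type*} [Group K] [Fintype K] [AddCommGroup Q] [Fintype Q] [DecidableEq Q] {q m : ℕ}
    {U A : Subgroup K} {k s r : K} (D : KD q m U A k s r) (B : Subgroup K) (hBN : B = Subgroup.normalizer (U : Set K))
    [Fintype B] (π : B → Q)
    (hπ : ∀ b c, π (b * c) = π b + π c) (hker : ∀ b, π b = 0 ↔ (b : K) ∈ U)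
    (h : K → ℂ) (hcl : ∀ g y : K, h (g * y * g⁻¹) = h y) (hsup : ∀ y : K, ¬ Odd (orderOf y) → h y = 0)
    (n1 s' : ℤ) (h1 : h 1 = n1) (hU : ∀ x ∈ U, x ≠ 1 → h x = s')
    (hnorm : 4 * ∑ y : K, ‖h y‖ ^ 2 < (q : ℝ) * ((q : ℝ) ^ 2 - 1)) :
    (∑ b ∈ (Finset.univ : Finset B).filter (fun b : B => π b = 0), h b = ((n1 + (q - 1) * s' : ℤ) : ℂ)) ∧
    2 * ∑ x : Q, ‖∑ b ∈ (Finset.univ : Finset B).filter (fun b : B => π b = x), h b‖ ^ 2 < (q : ℝ) ^ 2 * (q - 1) := by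
  classical
  have hUB : U ≤ B := by
    rw [hBN]
    exact Subgroup.le_normalizer
  have hq27 := D.q27
  have hcU : Nat.card U = q := D.cardU
  have hqR : (27 : ℝ) ≤ (q : ℝ) := by exact_mod_cast hq27
  have hV0 : (Finset.univ : Finset B).filter (fun b : B => π b = 0) =
      (Finset.univ : Finset B).filter (fun b : B => (b : K) ∈ U) := by
    ext b
    simp only [Finset.mem_filter, Finset.mem_univ, true_and]
    exact hker b
  have hS0 : ∑ b ∈ (Finset.univ : Finset B).filter (fun b : B => π b = 0), h b = ((n1 + (q - 1) * s' : ℤ) : ℂ) := by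
    rw [hV0, sum_split_U U B h, sum_const_U U B hUB (by omega) h _ hU, h1, hcU]
    push_cast
    ring
  refine ⟨hS0, ?_⟩
  obtain ⟨F, hF0, hFU, hFn⟩ : ∃ F : B → ℝ, (∀ b, 0 ≤ F b) ∧ (∀ b : B, (b : K) ∈ U → F b = 0) ∧ ∀ b : B, (b : K) ∉ U → F b = ‖h b‖ ^ 2 := by
    refine ⟨fun b => if (b : K) ∈ U then 0 else ‖h b‖ ^ 2, ?_, ?_, ?_⟩
    · intro b
      dsimp only
      split_ifs
      · exact le_rfl
      · exact sq_nonneg _
    · intro b hb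
      exact if_pos hb
    · intro b hb
      exact if_neg hb
  have hsumS := fib_est U B hUB π hπ hker h (n1 + (q - 1) * s') hS0 F hF0 hFn
  rw [hcU] at hsumS
  -- the class equation
  have hclass := D.sumOdd (fun y => ((‖h y‖ ^ 2 : ℝ) : ℂ)) (fun g y => by rw [hcl]) (fun y hy => by rw [hsup y hy]; simp)
  have c1 : ∑ᶠ u ∈ {u : K | u ∈ U ∧ u ≠ 1}, ((‖h u‖ ^ 2 : ℝ) : ℂ) = ((q : ℂ) - 1) * (((s' : ℝ) ^ 2 : ℝ) : ℂ) := by
    rw [finsum_conv B (fun u => u ∈ U ∧ u ≠ 1) (fun y hy => hUB hy.1)]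
    rw [sum_const_U U B hUB (by omega) (fun y => ((‖h y‖ ^ 2 : ℝ) : ℂ)) (((s' : ℝ) ^ 2 : ℝ) : ℂ), hcU]
    intro x hx hx1
    show ((‖h x‖ ^ 2 : ℝ) : ℂ) = _
    rw [hU x hx hx1, Complex.norm_intCast, sq_abs]
  have c2 : ∑ᶠ b ∈ {b : K | b ∈ Subgroup.normalizer (U : Set K) ∧ b ∉ U}, ((‖h b‖ ^ 2 : ℝ) : ℂ) = ((∑ b, F b : ℝ) : ℂ) := by
    rw [finsum_conv B (fun b => b ∈ Subgroup.normalizer (U : Set K) ∧ b ∉ U) (fun y hy => by rw [hBN]; exact hy.1),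
      Finset.sum_filter, Complex.ofReal_sum]
    refine Finset.sum_congr rfl fun b _ => ?_
    by_cases hb : (b : K) ∈ U
    · rw [if_neg (fun hh => hh.2 hb), hFU b hb]
      simp
    · rw [if_pos ⟨by rw [← hBN]; exact b.2, hb⟩, hFn b hb]
  have c3 : ∃ R : ℝ, 0 ≤ R ∧ ∑ᶠ a ∈ {a : K | a ∈ A ∧ a ≠ 1}, ((‖h a‖ ^ 2 : ℝ) : ℂ) = (R : ℂ) := by
    refine ⟨∑ a ∈ (Set.toFinite {a : K | a ∈ A ∧ a ≠ 1}).toFinset, ‖h a‖ ^ 2, Finset.sum_nonneg fun _ _ => sq_nonneg _, ?_⟩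
    rw [finsum_mem_eq_finite_toFinset_sum _ (Set.toFinite _), Complex.ofReal_sum]
  obtain ⟨R, hR0, hR⟩ := c3
  rw [c1, c2, hR, h1, Complex.norm_intCast, sq_abs, ← Complex.ofReal_sum] at hclass
  have hreal : 2 * ∑ y : K, ‖h y‖ ^ 2 = 2 * (n1 : ℝ) ^ 2 + 2 * ((q : ℝ) + 1) * (((q : ℝ) - 1) * (s' : ℝ) ^ 2) +
      ((q : ℝ) + 1) * (∑ b, F b) + (q : ℝ) * ((q : ℝ) - 1) * R := by
    apply Complex.ofReal_injective
    push_cast
    push_cast at hclass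
    exact hclass
  have hFs : 0 ≤ ∑ b, F b := Finset.sum_nonneg fun b _ => hF0 b
  have hmain := real_ineq (q : ℝ) (n1 : ℝ) (s' : ℝ) (∑ b, F b) R (∑ y : K, ‖h y‖ ^ 2) hqR hFs hR0 hreal hnorm
  have hcast : ((n1 + (q - 1) * s' : ℤ) : ℝ) = (n1 : ℝ) + ((q : ℝ) - 1) * (s' : ℝ) := by push_cast; ring
  rw [hcast] at hsumS
  linarith

end Cfsg.Agent.H42.RtHB
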